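import Cfsg.Agent.Lib.UnitarySixFour.Radical
import Cfsg.Agent.Lib.ClassicalForms.Unitary.Card

/-!
# The monomial subgroup of `SU₆(2)` and the abelian subgroup of order 243 of a Sylow 3-subgroup
-/

set_option autoImplicit false
set_option linter.unusedSimpArgs false
set_option linter.unusedSectionVars false

namespace CfsgLib.UnitarySixFour

open Cfsg Matrix CfsgLib.ClassicalForms

/-- First 3-cycle. -/
def cycA : Equiv.Perm (Fin 6) := Equiv.swap 0 1 * Equiv.swap 1 2

/-- Second 3-cycle. -/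
def cycB : Equiv.Perm (Fin 6) := Equiv.swap 3 4 * Equiv.swap 4 5

/-- The Sylow 3-subgroup of the symmetric group. -/
def sylPerm : Subgroup (Equiv.Perm (Fin 6)) := Subgroup.centralizer {cycA, cycB}

theorem mem_sylPerm {π : Equiv.Perm (Fin 6)} : π ∈ sylPerm ↔ cycA * π = π * cycA ∧ cycB * π = π * cycB := by
  simp [sylPerm, Subgroup.mem_centralizer_iff]

theorem card_sylPerm : Nat.card sylPerm = 9 := by
  rw [show Nat.card sylPerm = Nat.card {π : Equiv.Perm (Fin 6) // cycA * π = π * cycA ∧ cycB * π = π * cycB} from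
    Nat.card_congr (Equiv.subtypeEquivRight fun π => mem_sylPerm), Nat.card_eq_fintype_card]
  decide +kernel

theorem cycA_mem : cycA ∈ sylPerm := mem_sylPerm.2 (by decide)

theorem cycB_mem : cycB ∈ sylPerm := mem_sylPerm.2 (by decide)

theorem card_sum_zero : Fintype.card {x : Fin 6 → ZMod 3 // ∑ i, x i = 0} = 243 := by decide +kernel

theorem few_one : ∀ π : Equiv.Perm (Fin 6), (cycA * π = π * cycA ∧ cycB * π = π * cycB) → π ≠ 1 →
    Fintype.card {x : Fin 6 → ZMod 3 // ∑ i, x i = 0 ∧ ∃ t, ∀ j, x j = t + x (π j)} ≤ 27 := by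
  decide +kernel

theorem few_two : Fintype.card {x : Fin 6 → ZMod 3 //
    ∑ i, x i = 0 ∧ (∃ t, ∀ j, x j = t + x (cycA j)) ∧ ∃ t, ∀ j, x j = t + x (cycB j)} ≤ 9 := by decide +kernel

variable {F : Type*} [Field F]

/-- The matrix of a member of `SU`. -/
abbrev mat {n q : ℕ} (g : Cfsg.SU n F q) : Matrix (Fin n) (Fin n) F := g.1

theorem mat_mul {n q : ℕ} (g h : Cfsg.SU n F q) : mat (g * h) = mat g * mat h := rfl

theorem mat_one {n q : ℕ} : mat (1 : Cfsg.SU n F q) = 1 := rfl

theorem mat_inv_mul {n q : ℕ} (g : Cfsg.SU n F q) : mat g⁻¹ * mat g = 1 := by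
  rw [← mat_mul, inv_mul_cancel, mat_one]

theorem herm_mat {n q : ℕ} (g : Cfsg.SU n F q) (u v : Fin n → F) :
    hermForm n F q (mat g *ᵥ u) (mat g *ᵥ v) = hermForm n F q u v := g.2 u v

/-- Monomial with a given permutation. -/
def IsMon (M : Matrix (Fin 6) (Fin 6) F) (π : Equiv.Perm (Fin 6)) : Prop := ∀ j k, k ≠ π j → M k j = 0

/-- The monomial matrix. -/
def monM (π : Equiv.Perm (Fin 6)) (d : Fin 6 → F) : Matrix (Fin 6) (Fin 6) F :=
  Matrix.of fun k j => if k = π j then d j else 0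

theorem monM_mulVec (π : Equiv.Perm (Fin 6)) (d v : Fin 6 → F) (j : Fin 6) :
    (monM π d *ᵥ v) (π j) = d j * v j := by
  simp [Matrix.mulVec, dotProduct, monM]

theorem monM_mul (π π' : Equiv.Perm (Fin 6)) (d d' : Fin 6 → F) :
    monM π d * monM π' d' = monM (π * π') fun j => d (π' j) * d' j := by
  ext k j
  simp [Matrix.mul_apply, monM, ite_mul]
  split_ifs <;> simp_all

theorem isMon_monM (π : Equiv.Perm (Fin 6)) (d : Fin 6 → F) : IsMon (monM π d) π :=
  fun j k h => by simp [monM, h]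

theorem IsMon.eq_monM {M : Matrix (Fin 6) (Fin 6) F} {π : Equiv.Perm (Fin 6)} (h : IsMon M π) :
    M = monM π fun j => M (π j) j := by
  ext k j
  rw [monM, Matrix.of_apply]
  split_ifs with e
  · rw [e]
  · exact h j k e

theorem IsMon.mul {M N : Matrix (Fin 6) (Fin 6) F} {π π' : Equiv.Perm (Fin 6)} (h : IsMon M π) (h' : IsMon N π') :
    IsMon (M * N) (π * π') := by
  rw [h.eq_monM, h'.eq_monM, monM_mul]; exact isMon_monM _ _

variable [Fintype F] (hF : Fintype.card F = 4)
include hF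

theorem two_eq_zero : (2 : F) = 0 := by
  have h : ((4 : ℕ) : F) = 0 := by rw [← hF]; exact Nat.cast_card_eq_zero F
  have h' : (2 : F) * 2 = 0 := by rw [← h]; norm_num
  exact mul_self_eq_zero.1 h'

theorem cube_eq_one {x : F} (hx : x ≠ 0) : x ^ 3 = 1 := by
  have := FiniteField.pow_card_sub_one_eq_one x hx
  rwa [hF] at this

theorem conj_exists : Nonempty (Conj F 2) := exists_conj (by rw [Nat.card_eq_fintype_card, hF]; norm_num)

theorem exists_omega : ∃ ω : F, ω ≠ 0 ∧ ω ≠ 1 ∧ ∀ x : F, x ≠ 0 → x = 1 ∨ x = ω ∨ x = ω ^ 2 := by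
  classical
  obtain ⟨ω, -, hω⟩ : ∃ ω ∈ (Finset.univ : Finset F), ω ∉ ({0, 1} : Finset F) := by
    refine Finset.exists_mem_notMem_of_card_lt_card ?_
    rw [Finset.card_univ, hF]
    exact (Finset.card_le_two).trans_lt (by norm_num)
  simp only [Finset.mem_insert, Finset.mem_singleton, not_or] at hω
  refine ⟨ω, hω.1, hω.2, fun x hx => ?_⟩
  have h2 := two_eq_zero hF
  have hw : ω ^ 3 = 1 := cube_eq_one hF hω.1
  have hx3 : x ^ 3 = 1 := cube_eq_one hF hx
  have hsum : 1 + ω + ω ^ 2 = 0 := by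
    have h : (ω - 1) * (1 + ω + ω ^ 2) = 0 := by linear_combination hw
    exact (mul_eq_zero.1 h).resolve_left (sub_ne_zero.2 hω.2)
  have : (x - 1) * ((x - ω) * (x - ω ^ 2)) = 0 := by
    linear_combination hx3 - (x ^ 2 - x * ω) * hsum - hw
  simpa [sub_eq_zero] using this

theorem det_monM (π : Equiv.Perm (Fin 6)) (d : Fin 6 → F) : (monM π d).det = ∏ j, d j := by
  have h2 := two_eq_zero hF
  have e : monM π d = (1 : Matrix (Fin 6) (Fin 6) F).submatrix π.symm id * Matrix.diagonal d := by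
    ext k j
    rw [Matrix.mul_diagonal, monM, Matrix.of_apply, Matrix.submatrix_apply, id, Matrix.one_apply]
    simp [Equiv.symm_apply_eq]
  rw [e, det_mul, det_permute, det_one, det_diagonal, mul_one]
  rcases Int.units_eq_one_or (Equiv.Perm.sign π.symm) with h | h <;> rw [h]
  · simp
  · have h1 : (-1 : F) = 1 := by linear_combination -h2
    simp [h1]

/-- A monomial member of `SU`. -/
theorem exists_mon (π : Equiv.Perm (Fin 6)) (d : Fin 6 → F) (hd : ∀ j, d j ≠ 0) (hp : ∏ j, d j = 1) :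
    ∃ g : Cfsg.SU 6 F 2, mat g = monM π d := by
  obtain ⟨c⟩ := conj_exists hF
  refine ⟨mkSU c (monM π d) ?_ ((det_monM hF π d).trans hp), rfl⟩
  ext i j
  simp only [Matrix.mul_apply, Matrix.transpose_apply, Matrix.map_apply, monM, Matrix.of_apply, Matrix.one_apply]
  rw [Finset.sum_eq_single (π i) (fun k _ hk => by simp [hk]) (by simp), if_pos rfl]
  by_cases h : i = j
  · subst h
    rw [if_pos rfl, if_pos rfl, c.mul_conj]
    exact cube_eq_one hF (hd i)
  · simp [h, π.injective.eq_iff]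

theorem IsMon.ne_zero {g : Cfsg.SU 6 F 2} {π : Equiv.Perm (Fin 6)} (h : IsMon (mat g) π) (j : Fin 6) :
    mat g (π j) j ≠ 0 := by
  intro h0
  have hcol : ∀ k, mat g k j = 0 := fun k => by
    by_cases e : k = π j
    · rw [e]; exact h0
    · exact h j k e
  have := congrFun (congrFun (mat_inv_mul g) j) j
  rw [Matrix.mul_apply] at this
  simp [hcol] at this

theorem IsMon.unique {g : Cfsg.SU 6 F 2} {π π' : Equiv.Perm (Fin 6)} (h : IsMon (mat g) π)
    (h' : IsMon (mat g) π') : π = π' :=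
  Equiv.ext fun j => by_contra fun e => h.ne_zero hF j (h' j _ e)

theorem IsMon.prod_eq {g : Cfsg.SU 6 F 2} {π : Equiv.Perm (Fin 6)} (h : IsMon (mat g) π) :
    ∏ j, mat g (π j) j = 1 := by
  rw [← det_monM hF π, ← h.eq_monM]
  exact g.1.2

/-- The monomial subgroup. -/
noncomputable def monGroup : Subgroup (Cfsg.SU 6 F 2) :=
  have _ := hF
  { carrier := {g | ∃ π, IsMon (mat g) π}
    one_mem' := ⟨1, fun j k h => by rw [mat_one]; exact Matrix.one_apply_ne h⟩
    mul_mem' := by
      rintro g h ⟨π, hg⟩ ⟨π', hh⟩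
      exact ⟨π * π', by rw [mat_mul]; exact hg.mul hh⟩
    inv_mem' := by
      rintro g ⟨π, hg⟩
      refine ⟨π⁻¹, ?_⟩
      have e : monM π⁻¹ (fun j => (mat g j (π⁻¹ j))⁻¹) * mat g = 1 := by
        rw [hg.eq_monM, monM_mul, inv_mul_cancel]
        ext k j
        rw [← hg.eq_monM, monM, Matrix.of_apply, Matrix.one_apply, Equiv.Perm.one_apply]
        split_ifs
        · simp [inv_mul_cancel₀ (hg.ne_zero hF j)]
        · rfl
      have e' : mat g⁻¹ = monM π⁻¹ (fun j => (mat g j (π⁻¹ j))⁻¹) := by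
        have h1 : mat g⁻¹ * mat g * mat g⁻¹ = monM π⁻¹ (fun j => (mat g j (π⁻¹ j))⁻¹) * mat g * mat g⁻¹ := by
          rw [mat_inv_mul, e]
        rw [mul_assoc, mul_assoc, ← mat_mul g, mul_inv_cancel, mat_one, mul_one, mul_one] at h1
        exact h1
      rw [e']
      exact isMon_monM _ _ }

/-- The permutation of a monomial element. -/
noncomputable def monPerm : monGroup hF →* Equiv.Perm (Fin 6) :=
  MonoidHom.mk' (fun g => g.2.choose) fun g h =>
    IsMon.unique hF (g * h).2.choose_spec (g.2.choose_spec.mul h.2.choose_spec)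

theorem monPerm_eq {g : monGroup hF} {π : Equiv.Perm (Fin 6)} (h : IsMon (mat g.1) π) : monPerm hF g = π :=
  IsMon.unique hF g.2.choose_spec h

theorem isMon_monPerm (g : monGroup hF) : IsMon (mat g.1) (monPerm hF g) := g.2.choose_spec

theorem monPerm_surjective : Function.Surjective (monPerm hF) := fun π => by
  obtain ⟨g, hg⟩ := exists_mon hF π (fun _ => 1) (fun _ => one_ne_zero) (by simp)
  refine ⟨⟨g, π, by rw [hg]; exact isMon_monM _ _⟩, monPerm_eq hF ?_⟩
  rw [hg]; exact isMon_monM _ _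

/-- The diagonal subgroup. -/
noncomputable def diagGroup : Subgroup (Cfsg.SU 6 F 2) := (monPerm hF).ker.map (monGroup hF).subtype

/-- A Sylow 3-subgroup. -/
noncomputable def sylGroup : Subgroup (Cfsg.SU 6 F 2) := (sylPerm.comap (monPerm hF)).map (monGroup hF).subtype

theorem mem_diagGroup {g : Cfsg.SU 6 F 2} : g ∈ diagGroup hF ↔ IsMon (mat g) 1 := by
  refine ⟨?_, fun h => ⟨⟨g, 1, h⟩, monPerm_eq hF h, rfl⟩⟩
  rintro ⟨x, hx, rfl⟩
  have := isMon_monPerm hF x
  rwa [MonoidHom.mem_ker.1 hx] at this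

theorem mem_sylGroup {g : Cfsg.SU 6 F 2} : g ∈ sylGroup hF ↔ ∃ π ∈ sylPerm, IsMon (mat g) π := by
  constructor
  · rintro ⟨x, hx, rfl⟩
    exact ⟨_, hx, isMon_monPerm hF x⟩
  · rintro ⟨π, hπ, h⟩
    exact ⟨⟨g, π, h⟩, by rw [SetLike.mem_coe, Subgroup.mem_comap, monPerm_eq hF h]; exact hπ, rfl⟩

theorem diag_le_syl : diagGroup hF ≤ sylGroup hF := fun _ h =>
  (mem_sylGroup hF).2 ⟨1, one_mem _, (mem_diagGroup hF).1 h⟩

theorem exists_log : ∃ e : ZMod 3 → F, Function.Injective e ∧ (∀ x, e x ≠ 0) ∧ (∀ x y, e (x + y) = e x * e y) ∧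
    ∀ u : F, u ≠ 0 → ∃ x, e x = u := by
  classical
  have hc : Nat.card Fˣ = 3 := by rw [Nat.card_units, Nat.card_eq_fintype_card, hF]
  obtain ⟨e⟩ : Nonempty (Multiplicative (ZMod 3) ≃* Fˣ) :=
    ⟨(AddEquiv.toMultiplicative (ZMod.ringEquivCongr hc.symm).toAddEquiv).trans
      (zmodCyclicMulEquiv inferInstance)⟩
  refine ⟨fun x => (e (Multiplicative.ofAdd x) : F), fun x y h => ?_, fun x => Units.ne_zero _, fun x y => ?_,
    fun u hu => ⟨(e.symm (Units.mk0 u hu)).toAdd, by simp⟩⟩
  · exact Multiplicative.ofAdd.injective (e.injective (Units.ext h))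
  · simp [ofAdd_add]

theorem card_diagGroup : Nat.card (diagGroup hF) = 243 := by
  classical
  obtain ⟨e, he, he0, hem, hes⟩ := exists_log hF
  have he00 : e 0 = 1 := by
    have := hem 0 0; rw [add_zero] at this; exact (mul_eq_left₀ (he0 0)).1 this.symm
  have hprod : ∀ x : Fin 6 → ZMod 3, ∏ j, e (x j) = e (∑ j, x j) := fun x => by
    simp [Fin.sum_univ_six, Fin.prod_univ_six, hem]
  rw [← card_sum_zero, ← Nat.card_eq_fintype_card]
  choose g hg using fun x : {x : Fin 6 → ZMod 3 // ∑ i, x i = 0} =>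
    exists_mon hF 1 (fun j => e (x.1 j)) (fun j => he0 _) (by rw [hprod, x.2, he00])
  refine (Nat.card_eq_of_bijective (fun x => (⟨g x, (mem_diagGroup hF).2 (by rw [hg]; exact isMon_monM _ _)⟩ :
    diagGroup hF)) ⟨fun x y h => ?_, ?_⟩).symm
  · refine Subtype.ext (funext fun j => he ?_)
    have := congrArg (fun z : diagGroup hF => mat z.1 j j) h
    simpa [hg, monM] using this
  · rintro ⟨z, hz⟩
    have hm := (mem_diagGroup hF).1 hz
    choose x hx using fun j => hes _ (hm.ne_zero hF j)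
    have hsum : ∑ j, x j = 0 := he (by
      rw [← hprod, he00]; simp only [hx]; exact hm.prod_eq hF)
    refine ⟨⟨x, hsum⟩, Subtype.ext (su_ext ?_)⟩
    show mat (g ⟨x, hsum⟩) = mat z
    rw [hg, hm.eq_monM]
    simp [hx]

theorem card_monGroup : Nat.card (monGroup hF) = 243 * 720 := by
  have hk : Nat.card (monPerm hF).ker = 243 := by
    rw [← card_diagGroup hF, diagGroup, Subgroup.card_map_of_injective (monGroup hF).subtype_injective]
  rw [← Subgroup.card_mul_index (monPerm hF).ker, hk, Subgroup.index_ker,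
    MonoidHom.range_eq_top_of_surjective _ (monPerm_surjective hF), Subgroup.card_top, Nat.card_perm,
    Nat.card_eq_fintype_card, Fintype.card_fin]
  rfl

theorem card_sylGroup : Nat.card (sylGroup hF) = 2187 := by
  have hi : sylPerm.index = 80 := by
    have h := Subgroup.card_mul_index sylPerm
    rw [card_sylPerm, Nat.card_perm, Nat.card_eq_fintype_card (α := Fin 6), Fintype.card_fin] at h
    norm_num [Nat.factorial] at h
    omega
  have h := Subgroup.card_mul_index (sylPerm.comap (monPerm hF))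
  rw [Subgroup.index_comap_of_surjective _ (monPerm_surjective hF), hi, card_monGroup hF] at h
  rw [sylGroup, Subgroup.card_map_of_injective (monGroup hF).subtype_injective]
  omega

/-- Elements commuting up to a scalar. -/
def QuasiComm (x y : Cfsg.SU 6 F 2) : Prop := have _ := hF; ∃ t : F, mat x * mat y = t • (mat y * mat x)

theorem count_bound {S : Subgroup (Cfsg.SU 6 F 2)} (P : (Fin 6 → ZMod 3) → Prop)
    [DecidablePred P] (hS : S ≤ diagGroup hF) (e : ZMod 3 → F) (hes : ∀ u : F, u ≠ 0 → ∃ x, e x = u)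
    (h : ∀ g ∈ S, ∀ x : Fin 6 → ZMod 3, (∀ j, e (x j) = mat g j j) → P x) :
    Nat.card S ≤ Fintype.card {x // P x} := by
  classical
  rw [← Nat.card_eq_fintype_card]
  choose y hy using fun g : S => fun j => hes _ (((mem_diagGroup hF).1 (hS g.2)).ne_zero hF j)
  refine Nat.card_le_card_of_injective (fun g => (⟨y g, h g g.2 _ (hy g)⟩ : {x // P x})) fun g g' hgg => ?_
  refine Subtype.ext (su_ext ?_)
  show mat (g : Cfsg.SU 6 F 2) = mat (g' : Cfsg.SU 6 F 2)
  rw [((mem_diagGroup hF).1 (hS g.2)).eq_monM, ((mem_diagGroup hF).1 (hS g'.2)).eq_monM]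
  congr 1
  funext j
  have := congrFun (congrArg Subtype.val hgg) j
  exact (hy g j).symm.trans ((congrArg e this).trans (hy g' j))

/-- The diagonal subgroup is the only one of its order that is commutative modulo scalars. -/
theorem eq_diagGroup {B : Subgroup (Cfsg.SU 6 F 2)} (hB : B ≤ sylGroup hF) (hc : Nat.card B = 243)
    (hq : ∀ x ∈ B, ∀ y ∈ B, QuasiComm hF x y) : B = diagGroup hF := by
  classical
  obtain ⟨e, he, he0, hem, hes⟩ := exists_log hF
  refine Subgroup.eq_of_le_of_card_ge ?_ (by rw [hc, card_diagGroup hF])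
  by_contra hle
  have hBM : B ≤ monGroup hF := fun b hb => by
    obtain ⟨π, -, h⟩ := (mem_sylGroup hF).1 (hB hb)
    exact ⟨π, h⟩
  let ρ : B →* Equiv.Perm (Fin 6) := (monPerm hF).comp (Subgroup.inclusion hBM)
  have hρ : ρ.range ≤ sylPerm := by
    rintro _ ⟨b, rfl⟩
    obtain ⟨π, hπ, h⟩ := (mem_sylGroup hF).1 (hB b.2)
    exact (monPerm_eq hF (g := Subgroup.inclusion hBM b) h).symm ▸ hπ
  have hker : Nat.card ρ.ker = Nat.card ↥(B ⊓ diagGroup hF) := by
    rw [← Subgroup.card_map_of_injective (K := ρ.ker) (f := B.subtype) B.subtype_injective]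
    congr 2
    ext g
    constructor
    · rintro ⟨b, hb, rfl⟩
      exact ⟨b.2, Subgroup.inclusion hBM b, hb, rfl⟩
    · rintro ⟨hg, hd⟩
      refine ⟨⟨g, hg⟩, monPerm_eq hF ((mem_diagGroup hF).1 hd), rfl⟩
  have hmul : Nat.card ↥(B ⊓ diagGroup hF) * Nat.card ρ.range = 243 := by
    rw [← hker, ← Subgroup.index_ker, Subgroup.card_mul_index, hc]
  have hdvd : Nat.card ρ.range ∣ 9 := card_sylPerm ▸ Subgroup.card_dvd_of_le hρ
  -- a monomial element commuting up to scalars with a diagonal one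
  have hrel : ∀ π ∈ ρ.range, ∀ g ∈ B ⊓ diagGroup hF, ∀ x : Fin 6 → ZMod 3, (∀ j, e (x j) = mat g j j) →
      ∑ i, x i = 0 ∧ ∃ t, ∀ j, x j = t + x (π j) := by
    rintro π ⟨b, rfl⟩ g ⟨hgB, hgD⟩ x hx
    have hm := (mem_diagGroup hF).1 hgD
    have he00 : e 0 = 1 := by
      have := hem 0 0; rw [add_zero] at this; exact (mul_eq_left₀ (he0 0)).1 this.symm
    refine ⟨he ?_, ?_⟩
    · have hh : ∏ j, mat g j j = 1 := hm.prod_eq hF
      simp only [← hx] at hh
      rw [he00, ← hh]
      simp [Fin.sum_univ_six, Fin.prod_univ_six, hem]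
    · obtain ⟨t, ht⟩ := hq b b.2 g hgB
      have hb := isMon_monPerm hF (Subgroup.inclusion hBM b)
      set π := ρ b
      have hent : ∀ j, mat (b : Cfsg.SU 6 F 2) (π j) j * e (x j) =
          t * (e (x (π j)) * mat (b : Cfsg.SU 6 F 2) (π j) j) := fun j => by
        have := congrFun (congrFun ht (π j)) j
        rw [Matrix.smul_apply, smul_eq_mul, Matrix.mul_apply, Matrix.mul_apply,
          Finset.sum_eq_single j (fun k _ hk => by simp [hm j k hk]) (by simp),
          Finset.sum_eq_single (π j) (fun k _ hk => by simp [hm k (π j) (Ne.symm hk)]) (by simp), ← hx, ← hx] at this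
        exact this
      have ht0 : t ≠ 0 := fun h0 => by
        have := hent 0
        rw [h0, zero_mul, mul_eq_zero] at this
        rcases this with h | h
        exacts [hb.ne_zero hF 0 h, he0 _ h]
      obtain ⟨s, hs⟩ := hes t ht0
      refine ⟨s, fun j => he ?_⟩
      rw [hem, hs]
      exact mul_left_cancel₀ (hb.ne_zero hF j) (by rw [show (Subgroup.inclusion hBM b).1 = (b : Cfsg.SU 6 F 2) from rfl]; linear_combination hent j)
  have hne : ρ.range ≠ ⊥ := fun h => by
    rw [h, Subgroup.card_bot, mul_one, ← hc] at hmul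
    exact hle (inf_eq_left.1 (Subgroup.eq_of_le_of_card_ge inf_le_left hmul.ge))
  obtain ⟨π, hπ, hπ1⟩ := ρ.range.ne_bot_iff_exists_ne_one.1 hne |> fun ⟨⟨p, hp⟩, h⟩ =>
    (⟨p, hp, fun e => h (Subtype.ext e)⟩ : ∃ p ∈ ρ.range, p ≠ 1)
  have h27 := (count_bound hF _ inf_le_right e hes (fun g hg x hx => hrel π hπ g hg x hx)).trans
    (few_one π (mem_sylPerm.1 (hρ hπ)) hπ1)
  have h9 : Nat.card ρ.range = 9 := by
    have := Nat.le_of_dvd (by norm_num) hdvd
    by_contra hne9
    have : Nat.card ρ.range ≤ 3 := by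
      rcases (Nat.dvd_prime_pow Nat.prime_three (m := 2)).1 hdvd with ⟨k, hk, e⟩
      interval_cases k <;> omega
    nlinarith
  have hall := Subgroup.eq_of_le_of_card_ge hρ (by rw [card_sylPerm, h9])
  have h9' := (count_bound hF _ inf_le_right e hes (fun g hg x hx =>
    ⟨(hrel cycA (hall ▸ cycA_mem) g hg x hx).1, (hrel cycA (hall ▸ cycA_mem) g hg x hx).2,
      (hrel cycB (hall ▸ cycB_mem) g hg x hx).2⟩)).trans few_two
  rw [h9] at hmul
  omega

/-- An element whose columns have one nonzero entry is monomial. -/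
theorem isMon_of_col {h : Cfsg.SU 6 F 2} (hc : ∀ j, ∃ i, ∀ k, k ≠ i → mat h k j = 0) : h ∈ monGroup hF := by
  classical
  choose f hzero using hc
  have hf : ∀ j, mat h (f j) j ≠ 0 := fun j h0 => by
    have := congrFun (congrFun (mat_inv_mul h) j) j
    rw [Matrix.mul_apply] at this
    have hall : ∀ k, mat h k j = 0 := fun k => by
      by_cases e : k = f j
      · rw [e]; exact h0
      · exact hzero j k e
    simp [hall] at this
  have hinj : Function.Injective f := by
    intro j j' e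
    by_contra hne
    obtain ⟨c⟩ := conj_exists hF
    have := herm_mat h (Pi.single j 1) (Pi.single j' 1)
    rw [c.single_right, Pi.single_eq_of_ne (Ne.symm hne), c.herm_apply,
      Finset.sum_eq_single (f j) (fun k _ hk => by simp [Matrix.mulVec_single_one, hzero j k hk]) (by simp)] at this
    simp only [Matrix.mulVec_single_one, Matrix.col_apply, mul_eq_zero] at this
    rcases this with h' | h'
    · exact hf j h'
    · exact hf j' (e ▸ c.eq_zero h')
  exact ⟨Equiv.ofBijective f (Finite.injective_iff_bijective.1 hinj), hzero⟩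

/-- The normalizer of the diagonal subgroup is monomial. -/
theorem mem_monGroup_of_normalizes {h : Cfsg.SU 6 F 2}
    (hn : ∀ g ∈ diagGroup hF, h⁻¹ * g * h ∈ diagGroup hF) : h ∈ monGroup hF := by
  classical
  obtain ⟨ω, hω0, hω1, -⟩ := exists_omega hF
  have honly : ∀ i l j, i ≠ l → mat h i j ≠ 0 → mat h l j ≠ 0 → False := by
    intro i l j hil hi hl
    obtain ⟨k, hki, hkl⟩ : ∃ k : Fin 6, k ≠ i ∧ k ≠ l := (show ∀ a b : Fin 6, ∃ k, k ≠ a ∧ k ≠ b by decide) i l
    obtain ⟨g, hg⟩ := exists_mon hF 1 (fun m => if m = i then ω else if m = k then ω⁻¹ else 1)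
      (fun m => by split_ifs <;> simp [hω0]) (by
        rw [← Finset.mul_prod_erase Finset.univ _ (Finset.mem_univ i),
          ← Finset.mul_prod_erase (Finset.univ.erase i) _ (Finset.mem_erase.2 ⟨hki, Finset.mem_univ k⟩),
          Finset.prod_eq_one (fun m hm => ?_)]
        · simp [hki, hω0]
        · simp only [Finset.mem_erase] at hm
          simp [hm.1, hm.2.1])
    have hd := (mem_diagGroup hF).1 (hn g ((mem_diagGroup hF).2 (by rw [hg]; exact isMon_monM _ _)))
    have hh : mat g * mat h = mat h * mat (h⁻¹ * g * h) := by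
      rw [← mat_mul, ← mat_mul, show h * (h⁻¹ * g * h) = g * h by group]
    have hent : ∀ m, mat g m m * mat h m j = mat h m j * mat (h⁻¹ * g * h) j j := fun m => by
      have := congrFun (congrFun hh m) j
      rw [Matrix.mul_apply, Matrix.mul_apply,
        Finset.sum_eq_single m (fun q _ hq => by simp [hg, monM, Ne.symm hq]) (by simp),
        Finset.sum_eq_single j (fun q _ hq => by simp [hd j q hq]) (by simp)] at this
      exact this
    have h1 : mat g i i = mat (h⁻¹ * g * h) j j := mul_right_cancel₀ hi (by rw [hent i, mul_comm])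
    have h2 : mat g l l = mat (h⁻¹ * g * h) j j := mul_right_cancel₀ hl (by rw [hent l, mul_comm])
    rw [← h2] at h1
    exact hω1 (by simpa [hg, monM, hil.symm, hkl.symm] using h1)
  have hex : ∀ j, ∃ i, mat h i j ≠ 0 := fun j => by
    by_contra hcon
    push Not at hcon
    have := congrFun (congrFun (mat_inv_mul h) j) j
    rw [Matrix.mul_apply] at this
    simp [hcon] at this
  choose f hf using hex
  exact isMon_of_col hF fun j => ⟨f j, fun k hk => by_contra fun h0 => honly k (f j) j hk h0 (hf j)⟩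

end CfsgLib.UnitarySixFour
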