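import Mathlib

/-!
# Subgroups of `S₆` of order divisible by 45
-/

set_option autoImplicit false
set_option linter.style.haveILetI false
set_option maxRecDepth 100000

namespace CfsgLib.UnitarySixFour

theorem no_fifteen_elt : ∀ z : Equiv.Perm (Fin 6), z ^ 15 = 1 → z ^ 5 = 1 ∨ z ^ 3 = 1 := by
  decide +kernel

theorem no_order_fifteen : ∀ x : Equiv.Perm (Fin 6), x ^ 3 = 1 → x ≠ 1 →
    ∀ y : Equiv.Perm (Fin 6), y ^ 5 = 1 → y ≠ 1 → ∀ i : Fin 5, x * y * x⁻¹ ≠ y ^ (i : ℕ) := by
  intro x hx hx1 y hy hy1 i h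
  have e : ∀ n : ℕ, x ^ n * y * (x ^ n)⁻¹ = y ^ ((i : ℕ) ^ n) := by
    intro n
    induction n with
    | zero => simp
    | succ n ih =>
      rw [pow_succ' x, mul_inv_rev, pow_succ' (i : ℕ), pow_mul, ← h, conj_pow, ← ih]
      group
  have h3 : y ^ 1 = y ^ ((i : ℕ) ^ 3) := by simpa [hx] using e 3
  haveI : Fact (Nat.Prime 5) := ⟨by norm_num⟩
  rw [pow_eq_pow_iff_modEq, orderOf_eq_prime hy hy1] at h3
  have hi : (i : ℕ) = 1 := by
    revert h3
    fin_cases i <;> decide
  rw [hi, pow_one, mul_inv_eq_iff_eq_mul] at h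
  have hc : Commute x y := h
  have hz : (x * y) ^ 15 = 1 := by
    rw [hc.mul_pow, show (15 : ℕ) = 3 * 5 from rfl, pow_mul x, hx, one_pow, mul_comm 3 5, pow_mul y,
      hy, one_pow, one_mul]
  rcases no_fifteen_elt _ hz with h5 | h3'
  · rw [hc.mul_pow, hy, mul_one, show (5 : ℕ) = 3 + 2 from rfl, pow_add, hx, one_mul] at h5
    exact hx1 (by rw [show x = x ^ 3 from by rw [pow_succ, h5, one_mul], hx])
  · rw [hc.mul_pow, hx, one_mul] at h3'
    apply hy1
    have : y ^ 2 = 1 := by rw [show (5 : ℕ) = 3 + 2 from rfl, pow_add, h3', one_mul] at hy; exact hy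
    rw [show y = y ^ 3 from by rw [pow_succ, this, one_mul], h3']

/-- A subgroup of `S₆` of order divisible by 45 contains `A₆`. -/
theorem alternating_le {H : Subgroup (Equiv.Perm (Fin 6))} (h : 45 ∣ Nat.card H) : alternatingGroup (Fin 6) ≤ H := by
  classical
  set A := alternatingGroup (Fin 6)
  have hA : Nat.card A = 360 := by
    have : A.index = 2 := alternatingGroup.index_eq_two
    have h := Subgroup.card_mul_index A
    rw [this, Nat.card_perm, Nat.card_eq_fintype_card (α := Fin 6), Fintype.card_fin] at h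
    rw [show Nat.factorial 6 = 720 from rfl] at h
    omega
  have h45 : 45 ∣ Nat.card (H.subgroupOf A) := by
    have h2 : A.relIndex H ∣ 2 := by
      have := Subgroup.relIndex_dvd_index_of_normal A H
      rwa [alternatingGroup.index_eq_two] at this
    have hm : Nat.card (A.subgroupOf H) * A.relIndex H = Nat.card H := Subgroup.card_mul_index _
    have hc : Nat.card (A.subgroupOf H) = Nat.card (H.subgroupOf A) := by
      rw [← Subgroup.inf_subgroupOf_right A H, ← Subgroup.inf_subgroupOf_right H A,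
        Nat.card_congr (Subgroup.subgroupOfEquivOfLe (inf_le_right : A ⊓ H ≤ H)).toEquiv,
        Nat.card_congr (Subgroup.subgroupOfEquivOfLe (inf_le_right : H ⊓ A ≤ A)).toEquiv, inf_comm]
    rw [← hc]
    exact (Nat.Coprime.dvd_of_dvd_mul_right (Nat.Coprime.coprime_dvd_right h2 (by norm_num)) (hm ▸ h))
  set J := H.subgroupOf A
  suffices hJ : J = ⊤ from Subgroup.subgroupOf_eq_top.1 hJ
  have hi := Subgroup.card_mul_index J
  rw [hA] at hi
  obtain ⟨k, hk⟩ := h45
  have hd : J.index ∣ 8 := ⟨k, by rw [hk] at hi; linarith⟩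
  by_contra hne
  have hi1 : J.index ≠ 1 := fun e => hne (Subgroup.index_eq_one.1 e)
  haveI : IsSimpleGroup A := alternatingGroup.isSimpleGroup (by rw [Nat.card_fin]; norm_num)
  by_cases h4 : J.index ≤ 4
  · have hcore := (inferInstance : J.normalCore.Normal).eq_bot_or_eq_top
    rcases hcore with hb | ht
    · have hinj : Function.Injective (MulAction.toPermHom A (A ⧸ J)) := by
        rw [← MonoidHom.ker_eq_bot_iff, ← Subgroup.normalCore_eq_ker, hb]
      have := Nat.card_le_card_of_injective _ hinj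
      rw [hA, Nat.card_perm] at this
      have h24 : Nat.factorial (Nat.card (A ⧸ J)) ≤ Nat.factorial 4 := Nat.factorial_le h4
      have h' : Nat.factorial 4 = 24 := rfl
      omega
    · exact hne (top_le_iff.1 (ht ▸ J.normalCore_le))
  have h8 : J.index = 8 := by
    rcases (Nat.dvd_prime_pow Nat.prime_two (m := 3)).1 hd with ⟨t, ht, e⟩
    interval_cases t <;> omega
  have hJ : Nat.card J = 45 := by rw [h8] at hi; omega
  haveI : Fact (Nat.Prime 5) := ⟨by norm_num⟩
  haveI : Fact (Nat.Prime 3) := ⟨Nat.prime_three⟩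
  obtain ⟨P⟩ := (inferInstance : Nonempty (Sylow 5 J))
  have hP : Nat.card P = 5 := by
    rw [P.card_eq_multiplicity, hJ]
    rw [show 45 = 5 ^ 1 * 9 by norm_num, Nat.factorization_mul (by norm_num) (by norm_num), Finsupp.add_apply,
      Nat.Prime.factorization_pow (by norm_num), Finsupp.single_eq_same, Nat.factorization_eq_zero_of_not_dvd (by norm_num), add_zero, pow_one]
  have hn : (P : Subgroup J).Normal := by
    haveI : Subsingleton (Sylow 5 J) := by
      have h1 := P.card_dvd_index
      have h2 : (P : Subgroup J).index = 9 := by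
        have := Subgroup.card_mul_index (P : Subgroup J)
        rw [hP, hJ] at this; omega
      rw [h2] at h1
      have h3 := card_sylow_modEq_one 5 J
      rw [Nat.ModEq] at h3
      have := Nat.le_of_dvd (by norm_num) h1
      exact (Nat.card_eq_one_iff_unique.1 (by interval_cases hs : Nat.card (Sylow 5 J) <;> omega)).1
    exact Sylow.normal_of_subsingleton P
  obtain ⟨x, hx⟩ := exists_prime_orderOf_dvd_card' (G := J) 3 (by rw [hJ]; norm_num)
  obtain ⟨y, hy⟩ := exists_prime_orderOf_dvd_card' (G := ↥(P : Subgroup J)) 5 (by rw [hP])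
  have hgen : Subgroup.zpowers (y : J) = P := by
    refine Subgroup.eq_of_le_of_card_ge (Subgroup.zpowers_le.2 y.2) ?_
    rw [Nat.card_zpowers, Subgroup.orderOf_coe, hy, hP]
  have hmem : x * (y : J) * x⁻¹ ∈ Subgroup.zpowers (y : J) := by rw [hgen]; exact hn.conj_mem _ y.2 x
  obtain ⟨i, hi5, hi'⟩ : ∃ i, i < 5 ∧ (y : J) ^ i = x * y * x⁻¹ := by
    obtain ⟨i, hi⟩ := (Submonoid.mem_powers_iff _ _).1 (mem_powers_iff_mem_zpowers.2 hmem)
    refine ⟨i % 5, Nat.mod_lt _ (by norm_num), ?_⟩
    have h := pow_mod_orderOf (y : J) i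
    rw [Subgroup.orderOf_coe, hy] at h
    exact h.trans hi
  have cx : ((x : A) : Equiv.Perm (Fin 6)) ^ 3 = 1 := by
    rw [← hx, ← SubmonoidClass.coe_pow, ← SubmonoidClass.coe_pow, pow_orderOf_eq_one]; rfl
  have cy : ((((y : J) : A)) : Equiv.Perm (Fin 6)) ^ 5 = 1 := by
    have h := pow_orderOf_eq_one y
    rw [hy] at h
    have h' := congrArg (fun z : ↥(P : Subgroup J) => (((z : J) : A) : Equiv.Perm (Fin 6))) h
    simpa using h'
  refine no_order_fifteen _ cx (fun e => ?_) _ cy (fun e => ?_) ⟨i, hi5⟩ ?_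
  · have : x = 1 := Subtype.ext (Subtype.ext e)
    rw [this, orderOf_one] at hx; norm_num at hx
  · have : y = 1 := Subtype.ext (Subtype.ext (Subtype.ext e))
    rw [this, orderOf_one] at hy; norm_num at hy
  · have := congrArg (fun z : J => ((z : A) : Equiv.Perm (Fin 6))) hi'
    simpa using this.symm

end CfsgLib.UnitarySixFour
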