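import Cfsg.Agent.Lib.UnitarySixFour.Stab
import Cfsg.Agent.Lib.UnitarySixFour.Perm
import Cfsg.Agent.Lib.Leech.UnitaryFour
import Cfsg.Agent.Lib.Leech.UnitarySix
import Cfsg.Agent.Lib.ClassicalForms.Unitary.Simple

/-!
# The three classes of `3·U₄(3)` in `SU₆(2)`
-/

set_option autoImplicit false
set_option linter.unusedSimpArgs false
set_option linter.unusedSectionVars false
set_option maxHeartbeats 800000
set_option linter.style.haveILetI false

namespace CfsgLib.UnitarySixFour

open Cfsg Matrix CfsgLib.ClassicalForms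

attribute [local instance] suSMul

variable {F : Type} [Field F] [Fintype F] {F9 : Type} [Field F9] [Fintype F9]

/-- The subgroups of the statement. -/
def Good (F9 : Type) [Field F9] (K : Subgroup (Cfsg.SU 6 F 2)) : Prop :=
  Nat.card (Subgroup.center K) = 3 ∧ Nonempty (K ⧸ Subgroup.center K ≃* Cfsg.PSU 4 F9 3)

theorem Good.of_equiv {K K' : Subgroup (Cfsg.SU 6 F 2)} (h : Good F9 K) (e : K ≃* K') : Good F9 K' := by
  obtain ⟨hc, ⟨f⟩⟩ := h
  have hm : (Subgroup.center K).map (e : K →* K') = Subgroup.center K' := by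
    ext y
    refine ⟨?_, fun hy => ⟨e.symm y, ?_, e.apply_symm_apply y⟩⟩
    · rintro ⟨x, hx, rfl⟩
      refine Subgroup.mem_center_iff.2 fun z => ?_
      obtain ⟨w, rfl⟩ := e.surjective z
      show e w * e x = e x * e w
      rw [← map_mul, ← map_mul, Subgroup.mem_center_iff.1 hx w]
    · refine Subgroup.mem_center_iff.2 fun z => e.injective ?_
      rw [map_mul, map_mul, e.apply_symm_apply]
      exact Subgroup.mem_center_iff.1 hy (e z)
  refine ⟨?_, ⟨(QuotientGroup.congr _ _ e hm).symm.trans f⟩⟩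
  rw [← hm, Subgroup.card_map_of_injective (f := (e : K →* K')) e.injective, hc]

theorem Good.conj {K : Subgroup (Cfsg.SU 6 F 2)} (h : Good F9 K) (g : Cfsg.SU 6 F 2) :
    Good F9 (K.map (MulAut.conj g).toMonoidHom) :=
  h.of_equiv (K.equivMapOfInjective _ (MulAut.conj g).injective)

variable (hF : Fintype.card F = 4) (hF9 : Fintype.card F9 = 9)

section order
include hF

theorem card_center : Nat.card (Subgroup.center (Cfsg.SU 6 F 2)) = 3 := by
  rw [card_center_su (by rw [Nat.card_eq_fintype_card, hF]; norm_num) (by norm_num)]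
  norm_num

theorem card_su : Nat.card (Cfsg.SU 6 F 2) = 27590492160 := by
  rw [(Subgroup.center (Cfsg.SU 6 F 2)).card_eq_card_quotient_mul_card_subgroup, card_center hF,
    show Nat.card (Cfsg.SU 6 F 2 ⧸ Subgroup.center (Cfsg.SU 6 F 2)) = 9196830720 from
      CfsgLib.Leech.natCard_psu_six hF]

theorem center_scalar {z : Cfsg.SU 6 F 2} (hz : z ∈ Subgroup.center (Cfsg.SU 6 F 2)) :
    ∃ t : F, mat z = t • (1 : Matrix (Fin 6) (Fin 6) F) := by
  obtain ⟨a, ha⟩ := exists_scalar_of_commute_su (by rw [Nat.card_eq_fintype_card, hF]; norm_num) (by norm_num)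
    (suToGU z) fun s hs => by
      rw [← suToGU_suOfGU s hs]
      exact (Commute.map (Subgroup.mem_center_iff.1 hz (suOfGU s hs)).symm suToGU)
  refine ⟨a, ?_⟩
  ext i j
  have h : mat z *ᵥ Pi.single j 1 = a • (Pi.single j 1 : Fin 6 → F) := ha (Pi.single j 1)
  have := congrFun h i
  rw [mulVec_single_one] at this
  simpa [Pi.single_apply, Matrix.one_apply] using this

theorem center_le_diag : Subgroup.center (Cfsg.SU 6 F 2) ≤ diagGroup hF := fun z hz => by
  obtain ⟨t, ht⟩ := center_scalar hF hz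
  exact (mem_diagGroup hF).2 fun j k h => by rw [ht]; simp [Matrix.one_apply_ne (show k ≠ j from h)]

theorem quasiComm_of_commutator {x y : Cfsg.SU 6 F 2}
    (h : x * y * (y * x)⁻¹ ∈ Subgroup.center (Cfsg.SU 6 F 2)) : QuasiComm hF x y := by
  obtain ⟨t, ht⟩ := center_scalar hF h
  refine ⟨t, ?_⟩
  rw [← mat_mul, ← mat_mul, show x * y = x * y * (y * x)⁻¹ * (y * x) by group, mat_mul, ht, smul_mul_assoc, one_mul]

theorem isPGroup_syl : IsPGroup 3 (sylGroup hF) := IsPGroup.of_card (n := 7) (by rw [card_sylGroup hF]; norm_num)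

theorem isSylow_of_card {P : Subgroup (Cfsg.SU 6 F 2)} (hP : Nat.card P = 2187) :
    ∃ S : Sylow 3 (Cfsg.SU 6 F 2), (S : Subgroup (Cfsg.SU 6 F 2)) = P := by
  haveI : Fact (Nat.Prime 3) := ⟨Nat.prime_three⟩
  refine ⟨(IsPGroup.of_card (n := 7) (by rw [hP]; norm_num) : IsPGroup 3 P).toSylow ?_, rfl⟩
  have h := Subgroup.card_mul_index P
  rw [hP, card_su hF] at h
  omega

end order

section good
include hF hF9

theorem card_good {K : Subgroup (Cfsg.SU 6 F 2)} (h : Good F9 K) : Nat.card K = 9797760 := by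
  obtain ⟨hc, ⟨f⟩⟩ := h
  rw [(Subgroup.center K).card_eq_card_quotient_mul_card_subgroup, hc, Nat.card_congr f.toEquiv,
    CfsgLib.Leech.natCard_psu_four hF9]

theorem exists_conj_syl {K : Subgroup (Cfsg.SU 6 F 2)} (h : Good F9 K) :
    ∃ g : Cfsg.SU 6 F 2, sylGroup hF ≤ K.map (MulAut.conj g).toMonoidHom := by
  haveI : Fact (Nat.Prime 3) := ⟨Nat.prime_three⟩
  obtain ⟨R, hR⟩ := Sylow.exists_subgroup_card_pow_prime (G := K) 3 (n := 7) (by
    rw [card_good hF hF9 h]; norm_num)
  obtain ⟨S, hS⟩ := isSylow_of_card hF (P := R.map K.subtype) (by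
    rw [Subgroup.card_map_of_injective K.subtype_injective, hR]; norm_num)
  obtain ⟨S', hS'⟩ := isSylow_of_card hF (card_sylGroup hF)
  obtain ⟨g, hg⟩ := MulAction.exists_smul_eq (Cfsg.SU 6 F 2) S S'
  refine ⟨g, ?_⟩
  rw [← hS', ← hg, Sylow.coe_subgroup_smul, hS, Subgroup.pointwise_smul_def]
  exact Subgroup.map_mono (Subgroup.map_subtype_le R)

variable {K : Subgroup (Cfsg.SU 6 F 2)} (hK : Good F9 K) (hPK : sylGroup hF ≤ K)
include hK hPK

theorem center_good : Subgroup.center K = (Subgroup.center (Cfsg.SU 6 F 2)).subgroupOf K := by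
  refine (Subgroup.eq_of_le_of_card_ge (fun z hz => Subgroup.mem_center_iff.2 fun y =>
    Subtype.ext (Subgroup.mem_center_iff.1 (Subgroup.mem_subgroupOf.1 hz) y.1)) ?_).symm
  rw [hK.1, Nat.card_congr (Subgroup.subgroupOfEquivOfLe
    ((center_le_diag hF).trans ((diag_le_syl hF).trans hPK))).toEquiv, card_center hF]

/-- The monomial elements with even permutation lie in the group. -/
theorem even_mem {g : Cfsg.SU 6 F 2} {π : Equiv.Perm (Fin 6)} (hπ : Equiv.Perm.sign π = 1)
    (hg : IsMon (mat g) π) : g ∈ K := by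
  classical
  haveI : Fact (Nat.Prime 3) := ⟨Nat.prime_three⟩
  haveI : Fact (Nat.Prime 5) := ⟨by norm_num⟩
  obtain ⟨A, a5, hA, hAc, hAn, ha5⟩ := exists_radical hF9
  obtain ⟨f⟩ := hK.2
  let φ : K →* Cfsg.PSU 4 F9 3 := f.toMonoidHom.comp (QuotientGroup.mk' _)
  have hφs : Function.Surjective φ := f.surjective.comp (QuotientGroup.mk'_surjective _)
  have hφk : φ.ker = Subgroup.center K := by
    ext z
    simp [φ, MonoidHom.mem_ker]
  set B := A.comap φ
  have hBc : Nat.card B = 243 := by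
    have h := Subgroup.card_mul_index B
    rw [Subgroup.index_comap_of_surjective _ hφs, card_good hF hF9 hK] at h
    have h' := Subgroup.card_mul_index A
    rw [hA, CfsgLib.Leech.natCard_psu_four hF9] at h'
    nlinarith
  -- move it into the Sylow subgroup
  have hP : Nat.card ((sylGroup hF).subgroupOf K) = 2187 := by
    rw [Nat.card_congr (Subgroup.subgroupOfEquivOfLe hPK).toEquiv, card_sylGroup hF]
  let P : Sylow 3 K := (IsPGroup.of_card (n := 7) (by rw [hP]; norm_num) : IsPGroup 3 _).toSylow (by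
    have h := Subgroup.card_mul_index ((sylGroup hF).subgroupOf K)
    rw [hP, card_good hF hF9 hK] at h
    omega)
  obtain ⟨P', hP'⟩ := (IsPGroup.of_card (n := 5) (by rw [hBc]; norm_num) : IsPGroup 3 B).exists_le_sylow
  obtain ⟨k, hk⟩ := MulAction.exists_smul_eq K P' P
  have hBk : B.map ((K.subtype).comp (MulAut.conj k).toMonoidHom) ≤ sylGroup hF := by
    rintro _ ⟨b, hb, rfl⟩
    have : MulAut.conj k b ∈ (P : Subgroup K) := by
      rw [← hk, Sylow.coe_subgroup_smul, Subgroup.pointwise_smul_def]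
      exact ⟨b, hP' hb, rfl⟩
    exact this
  have hinj : Function.Injective ((K.subtype).comp (MulAut.conj k).toMonoidHom) :=
    K.subtype_injective.comp (MulAut.conj k).injective
  have hBE : B.map ((K.subtype).comp (MulAut.conj k).toMonoidHom) = diagGroup hF := by
    refine eq_diagGroup hF hBk (by rw [Subgroup.card_map_of_injective hinj, hBc]) ?_
    rintro _ ⟨x, hx, rfl⟩ _ ⟨y, hy, rfl⟩
    refine quasiComm_of_commutator hF ?_
    rw [← map_mul, ← map_mul, ← map_inv, ← map_mul]
    have h1 : x * y * (y * x)⁻¹ ∈ Subgroup.center K := by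
      rw [← hφk, MonoidHom.mem_ker, map_mul, map_inv, map_mul, map_mul, hAc _ hx _ hy, mul_inv_cancel]
    have h2 : MulAut.conj k (x * y * (y * x)⁻¹) = x * y * (y * x)⁻¹ := by
      rw [MulAut.conj_apply, Subgroup.mem_center_iff.1 h1 k, mul_inv_cancel_right]
    show (MulAut.conj k (x * y * (y * x)⁻¹) : K).1 ∈ _
    rw [h2]
    rw [center_good hF hF9 hK hPK] at h1
    exact h1
  -- an element of order divisible by five normalising it
  obtain ⟨y₀, hy₀⟩ := hφs a5
  set y := (MulAut.conj k y₀ : K)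
  have hyn : ∀ e ∈ diagGroup hF, (y : Cfsg.SU 6 F 2)⁻¹ * e * y ∈ diagGroup hF := by
    rw [← hBE]
    rintro _ ⟨b, hb, rfl⟩
    refine ⟨y₀⁻¹ * b * y₀, ?_, ?_⟩
    · show φ (y₀⁻¹ * b * y₀) ∈ A
      rw [map_mul, map_mul, map_inv, hy₀]
      exact ((Subgroup.mem_normalizer_iff'').1 hAn _).1 hb
    · show ((MulAut.conj k (y₀⁻¹ * b * y₀) : K) : Cfsg.SU 6 F 2) = _
      rw [map_mul, map_mul, map_inv]
      rfl
  have hyM : (y : Cfsg.SU 6 F 2) ∈ monGroup hF := mem_monGroup_of_normalizes hF hyn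
  have h5y : 5 ∣ orderOf (⟨y, hyM⟩ : monGroup hF) := by
    rw [Subgroup.orderOf_mk, Subgroup.orderOf_coe, ← ha5, ← hy₀]
    rw [show orderOf y = orderOf y₀ from (MulAut.conj k).orderOf_eq y₀]
    exact orderOf_map_dvd φ y₀
  set L := (K.comap (monGroup hF).subtype).map (monPerm hF)
  have h5 : 5 ∣ Nat.card L := by
    set y' : monGroup hF := ⟨y, hyM⟩
    have hker : y' ^ orderOf (monPerm hF y') ∈ (monPerm hF).ker := by
      rw [MonoidHom.mem_ker, map_pow, pow_orderOf_eq_one]
    have hk243 : orderOf y' ∣ orderOf (monPerm hF y') * 243 := by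
      refine orderOf_dvd_of_pow_eq_one ?_
      rw [pow_mul]
      have := pow_card_eq_one' (G := (monPerm hF).ker) (x := ⟨_, hker⟩)
      rw [show Nat.card (monPerm hF).ker = 243 by
        rw [← card_diagGroup hF, diagGroup, Subgroup.card_map_of_injective (monGroup hF).subtype_injective]] at this
      exact congrArg Subtype.val this
    have := (Nat.Coprime.dvd_of_dvd_mul_right (by norm_num) (h5y.trans hk243))
    exact this.trans (Subgroup.orderOf_dvd_natCard L ⟨y', y.2, rfl⟩)
  have h9 : 9 ∣ Nat.card L := by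
    rw [← card_sylPerm]
    refine Subgroup.card_dvd_of_le fun p hp => ?_
    obtain ⟨x, rfl⟩ := monPerm_surjective hF p
    exact ⟨x, hPK ((mem_sylGroup hF).2 ⟨_, hp, isMon_monPerm hF x⟩), rfl⟩
  obtain ⟨x, hxK, hx⟩ := alternating_le (Nat.Coprime.mul_dvd_of_dvd_of_dvd (by norm_num) h9 h5)
    (Equiv.Perm.mem_alternatingGroup.2 hπ)
  set g' : monGroup hF := ⟨g, π, hg⟩
  have : (g' * x⁻¹) ∈ (monPerm hF).ker := by
    rw [MonoidHom.mem_ker, map_mul, map_inv, hx, monPerm_eq hF hg, mul_inv_cancel]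
  have hd : ((g' * x⁻¹ : monGroup hF) : Cfsg.SU 6 F 2) ∈ K :=
    hPK (diag_le_syl hF ⟨_, this, rfl⟩)
  have := mul_mem hd hxK
  simpa [g', mul_assoc] using this

/-- The group is inside the stabilizer of a unique orbit set. -/
theorem exists_param : ∃ c : F, c ≠ 0 ∧ K ≤ stabO c ∧ ∀ d, K ≤ stabO d → d = c := by
  classical
  obtain ⟨cj⟩ := conj_exists hF
  have h2 := two_eq_zero hF
  have hcard := card_good hF hF9 hK
  have hmove : ∀ (π : Equiv.Perm (Fin 6)) (d : Fin 6 → F) (v w : Fin 6 → F), Equiv.Perm.sign π = 1 →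
      (∀ j, d j ≠ 0) → ∏ j, d j = 1 → (∀ j, w (π j) = d j * v j) →
      w ∈ MulAction.orbit K v := by
    intro π d v w hπ hd hp hw
    obtain ⟨g, hg⟩ := exists_mon hF π d hd hp
    refine ⟨⟨g, even_mem hF hF9 hK hPK hπ (by rw [hg]; exact isMon_monM _ _)⟩, funext fun i => ?_⟩
    obtain ⟨j, rfl⟩ := π.surjective i
    exact (smul_monomial hg v j).trans (hw j).symm
  let r2 : Fin 6 → F := ![1, 1, 0, 0, 0, 0]
  let r4 : Fin 6 → F := ![1, 1, 1, 1, 0, 0]
  let r6 : F → Fin 6 → F := fun c => ![c, 1, 1, 1, 1, 1]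
  have t2 : ∀ v, wt v = 2 → v ∈ MulAction.orbit K r2 := by
    intro v hv
    obtain ⟨i, j, hij, e⟩ := supp_two _ hv
    obtain ⟨π, hπ, h0, h1⟩ := perm_pair i j hij
    have hi : v (π 0) ≠ 0 := mem_supp.1 (by rw [h0, e]; simp)
    have hj : v (π 1) ≠ 0 := mem_supp.1 (by rw [h1, e]; simp)
    refine hmove π ![v (π 0), v (π 1), (v (π 0) * v (π 1))⁻¹, 1, 1, 1] r2 v hπ ?_ ?_ fun k => ?_
    · intro k; fin_cases k <;> simp [hi, hj]
    · simp [Fin.prod_univ_six, hi, hj]; field_simp
    · have hz : ∀ m, m ≠ 0 → m ≠ 1 → v (π m) = 0 := fun m m0 m1 => by_contra fun h => by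
        have := mem_supp.2 h
        rw [e, ← h0, ← h1] at this
        simp [π.injective.eq_iff, m0, m1] at this
      fin_cases k <;> simp [r2, hz]
  have t4 : ∀ v, wt v = 4 → v ∈ MulAction.orbit K r4 := by
    intro v hv
    obtain ⟨i, j, hij, e⟩ := supp_four _ hv
    obtain ⟨π, hπ, h4, h5⟩ := perm_quad i j hij
    have hne : ∀ m, m ≠ 4 → m ≠ 5 → v (π m) ≠ 0 := fun m m4 m5 => mem_supp.1 (by
      rw [e, ← h4, ← h5]; simp [π.injective.eq_iff, m4, m5])
    have hz : ∀ m, (m = 4 ∨ m = 5) → v (π m) = 0 := fun m hm => by_contra fun h => by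
      have := mem_supp.2 h
      rw [e] at this
      rcases hm with rfl | rfl <;> simp [h4, h5] at this
    refine hmove π ![v (π 0), v (π 1), v (π 2), v (π 3), (v (π 0) * v (π 1) * v (π 2) * v (π 3))⁻¹, 1] r4 v hπ
      ?_ ?_ fun k => ?_
    · intro k; fin_cases k <;> simp [hne]
    · simp [Fin.prod_univ_six]
      field_simp [hne 0 (by decide) (by decide), hne 1 (by decide) (by decide), hne 2 (by decide) (by decide),
        hne 3 (by decide) (by decide)]
    · fin_cases k <;> simp [r4, hz]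
  have t6 : ∀ c v, c ≠ 0 → wt v = 6 → ∏ i, v i = c → v ∈ MulAction.orbit K (r6 c) := by
    intro c v hc hv hp
    have hne := full_iff.1 hv
    refine hmove 1 ![v 0 / c, v 1, v 2, v 3, v 4, v 5] (r6 c) v (map_one _) ?_ ?_ fun k => ?_
    · intro k; fin_cases k <;> simp [hne, hc]
    · rw [Fin.prod_univ_six] at hp ⊢
      simp
      rw [div_mul_eq_mul_div, div_mul_eq_mul_div, div_mul_eq_mul_div, div_mul_eq_mul_div, div_mul_eq_mul_div,
        hp, div_self hc]
    · fin_cases k <;> simp [r6, hc]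
  set X := MulAction.orbit K r2
  have hwr2 : wt r2 = 2 := by
    rw [wt, show supp r2 = {0, 1} from Finset.ext fun i => by
      rw [mem_supp]; fin_cases i <;> simp [r2]]
    rfl
  obtain ⟨ω, hω0, hω1, hω⟩ := exists_omega hF
  set T : ℕ → Set (Fin 6 → F) := fun k => {v | wt v = k}
  set U : F → Set (Fin 6 → F) := fun c => {v | wt v = 6 ∧ ∏ i, v i = c}
  have hXiso : ∀ v ∈ X, wt v = 2 ∨ wt v = 4 ∨ wt v = 6 := by
    rintro _ ⟨g, rfl⟩
    have hr : hermForm 6 F 2 r2 r2 = 0 := by rw [herm_self_wt hF, hwr2]; exact_mod_cast h2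
    refine isotropic_cases hF (fun h => ?_) (by rw [← hr]; exact herm_mat g.1 r2 r2)
    have : r2 = 0 := by
      have := congrArg (fun w => (g⁻¹ : K) • w) h
      simpa [Submonoid.smul_def, Subgroup.smul_def, smul_def] using this
    simpa [r2] using congrFun this 0
  have key : ∀ {r : Fin 6 → F} {C : Set (Fin 6 → F)}, (∀ v ∈ C, v ∈ MulAction.orbit K r) →
      C ⊆ X ∨ ∀ v ∈ C, v ∉ X := by
    intro r C h
    by_cases hex : ∃ v ∈ C, v ∈ X
    · obtain ⟨v, hv, hvX⟩ := hex
      left
      intro w hw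
      have e1 := MulAction.orbit_eq_iff.2 hvX
      show w ∈ MulAction.orbit K r2
      rw [← e1, MulAction.orbit_eq_iff.2 (h v hv)]
      exact h w hw
    · exact Or.inr fun v hv hvX => hex ⟨v, hv, hvX⟩
  have hT2 : T 2 ⊆ X := fun v hv => t2 v hv
  have hU : ∀ c, c ≠ 0 → U c ⊆ X ∨ ∀ v ∈ U c, v ∉ X := fun c hc => key fun v hv => t6 c v hc hv.1 hv.2
  have hX : X = T 2 ∪ (T 4 ∩ X) ∪ (U 1 ∩ X) ∪ (U ω ∩ X) ∪ (U (ω ^ 2) ∩ X) := by
    ext v
    constructor
    · intro hv
      rcases hXiso v hv with h | h | h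
      · simp [T, h]
      · simp [T, h, hv]
      · rcases hω (∏ i, v i) (Finset.prod_ne_zero_iff.2 fun i _ => full_iff.1 h i) with e | e | e <;>
          simp [T, U, h, hv, e]
    · rintro ((((h | h) | h) | h) | h)
      exacts [hT2 h, h.2, h.2, h.2, h.2]
  have hω2 : ω ^ 2 ≠ 0 := pow_ne_zero _ hω0
  have hω21 : ω ^ 2 ≠ 1 := fun e => hω1 (by have := cube_eq_one hF hω0; linear_combination this - ω * e)
  have hω2ω : ω ^ 2 ≠ ω := fun e => hω1 (mul_left_cancel₀ hω0 (by linear_combination e))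
  have hn : X.ncard = (T 2).ncard + (T 4 ∩ X).ncard + (U 1 ∩ X).ncard + (U ω ∩ X).ncard +
      (U (ω ^ 2) ∩ X).ncard := by
    nth_rw 1 [hX]
    rw [Set.ncard_union_eq, Set.ncard_union_eq, Set.ncard_union_eq, Set.ncard_union_eq]
    all_goals
      rw [Set.disjoint_left]
      intro v h1 h2
      simp only [T, U, Set.mem_union, Set.mem_inter_iff, Set.mem_ofPred_eq] at h1 h2
      grind
  have hd : X.ncard ∣ 9797760 := by
    rw [← hcard, ← Nat.card_congr (MulAction.orbitProdStabilizerEquivGroup K r2), Nat.card_prod,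
      Nat.card_coe_set_eq]
    exact dvd_mul_right _ _
  have hval4 : (T 4 ∩ X).ncard = 0 ∨ (T 4 ∩ X).ncard = 1215 := by
    rcases key (r := r4) (C := T 4) (fun v hv => t4 v hv) with h | h
    · right; rw [Set.inter_eq_left.2 h]; exact ncard_wt hF 4 1215 count_wt.2.1
    · left; rw [Set.ncard_eq_zero]; ext v; simpa using h v
  have hvalU : ∀ c, c ≠ 0 → (U c ∩ X).ncard = 0 ∨ ((U c ∩ X).ncard = 243 ∧ U c ⊆ X) := fun c hc => by
    rcases hU c hc with h | h
    · right; exact ⟨by rw [Set.inter_eq_left.2 h]; exact ncard_full hF hc, h⟩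
    · left; rw [Set.ncard_eq_zero]; ext v; simpa using h v
  rw [show (T 2).ncard = 135 from ncard_wt hF 2 135 count_wt.1] at hn
  -- only weight two
  have h135 : X.ncard ≠ 135 := fun e => by
    have hXT : X = T 2 := (Set.eq_of_subset_of_ncard_le hT2 (by
      rw [e, show (T 2).ncard = 135 from ncard_wt hF 2 135 count_wt.1])).symm
    have hle : K ≤ monGroup hF := le_monGroup_of_wt hF fun g hg v hv => by
      have hv' : v ∈ X := hT2 hv
      have : (⟨g, hg⟩ : K) • v ∈ X := MulAction.mem_orbit_of_mem_orbit _ hv'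
      rw [hXT] at this
      exact this
    have := Subgroup.card_dvd_of_le hle
    rw [hcard, card_monGroup hF] at this
    norm_num at this
  -- all three full classes
  have h864 : X.ncard ≠ 864 ∨ ¬ U 1 ⊆ X := by
    by_contra hcon
    push Not at hcon
    obtain ⟨e, hU1⟩ := hcon
    set w : Fin 6 → F := fun _ => 1
    have hw : w ∈ U 1 := ⟨full_iff.2 fun _ => one_ne_zero, by simp [w]⟩
    have ho : MulAction.orbit K w = X := MulAction.orbit_eq_iff.2 (hU1 hw)
    have hs : Nat.card (MulAction.stabilizer K w) = 11340 := by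
      have h := Nat.card_congr (MulAction.orbitProdStabilizerEquivGroup K w)
      rw [Nat.card_prod, Nat.card_coe_set_eq, ho, e, hcard] at h
      omega
    choose p hp using fun π : alternatingGroup (Fin 6) =>
      exists_mon hF π.1 (fun _ => 1) (fun _ => one_ne_zero) (by simp)
    let ι : alternatingGroup (Fin 6) →* MulAction.stabilizer K w := MonoidHom.mk'
      (fun π => ⟨⟨p π, even_mem hF hF9 hK hPK (Equiv.Perm.mem_alternatingGroup.1 π.2)
        (by rw [hp]; exact isMon_monM _ _)⟩, funext fun i => by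
          obtain ⟨j, rfl⟩ := π.1.surjective i
          exact (smul_monomial (hp π) w j).trans (by simp [w])⟩)
      fun a b => Subtype.ext (Subtype.ext (su_ext (show mat (p (a * b)) = mat (p a) * mat (p b) by
        rw [hp, hp, hp, monM_mul]; simp)))
    have hι : Function.Injective ι := fun a b h => by
      have h' : mat (p a) = mat (p b) := congrArg (fun z : MulAction.stabilizer K w => mat z.1.1) h
      refine Subtype.ext (Equiv.ext fun j => by_contra fun hne => ?_)
      have := congrFun (congrFun h' (a.1 j)) j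
      rw [hp, hp] at this
      simp [monM, hne] at this
    have := Subgroup.card_dvd_of_injective ι hι
    have hA : Nat.card (alternatingGroup (Fin 6)) = 360 := by
      rw [Nat.card_eq_fintype_card]; decide +kernel
    rw [hs, hA] at this
    norm_num at this
  obtain ⟨c, hc, hcX⟩ : ∃ c : F, c ≠ 0 ∧ X = {v | InO c v} := by
    have hfin : ∀ c, c ≠ 0 → (U c ∩ X).ncard = 243 → X.ncard = 378 → U c ⊆ X → X = {v | InO c v} :=
      fun c hc h hX3 hs => by
      refine (Set.eq_of_subset_of_ncard_le (fun v hv => ?_) ?_).symm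
      · rcases hv with h | h
        exacts [hT2 h, hs h]
      · rw [hX3, show {v : Fin 6 → F | InO c v} = T 2 ∪ U c from rfl, Set.ncard_union_eq (Set.disjoint_left.2 ?_),
          show (T 2).ncard = 135 from ncard_wt hF 2 135 count_wt.1, show (U c).ncard = 243 from ncard_full hF hc]
        intro v h1 h2
        have : wt v = 2 := h1
        have : wt v = 6 := h2.1
        omega
    rcases hval4 with a | a <;> rcases hvalU 1 one_ne_zero with b | b <;> rcases hvalU ω hω0 with d | d <;>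
      rcases hvalU (ω ^ 2) hω2 with f | f <;> simp only [a, b, d, f] at hn <;>
      first
        | exact absurd hn h135
        | (rw [hn] at hd; norm_num at hd; done)
        | exact ⟨1, one_ne_zero, hfin 1 one_ne_zero b.1 hn b.2⟩
        | exact ⟨ω, hω0, hfin ω hω0 d.1 hn d.2⟩
        | exact ⟨ω ^ 2, hω2, hfin _ hω2 f.1 hn f.2⟩
        | (rcases h864 with h | h; exacts [absurd hn h, absurd b.2 h])
  refine ⟨c, hc, fun g hg v => ?_, fun d hd' => ?_⟩
  · have hiff : g • v ∈ X ↔ v ∈ X := ⟨fun h => by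
      have := MulAction.mem_orbit_of_mem_orbit (⟨g, hg⟩⁻¹ : K) h
      rwa [show (⟨g, hg⟩⁻¹ : K) • (g • v) = v from inv_smul_smul g v] at this,
      fun h => MulAction.mem_orbit_of_mem_orbit (⟨g, hg⟩ : K) h⟩
    rw [hcX] at hiff
    exact hiff
  · set u := r6 c
    have huX : u ∈ X := by
      rw [hcX]
      exact Or.inr ⟨full_iff.2 fun i => by fin_cases i <;> simp [u, r6, hc], by simp [Fin.prod_univ_six, u, r6]⟩
    obtain ⟨k, hk⟩ := huX
    have := (hd' k.2 r2).2 (Or.inl hwr2)
    rw [show (k : Cfsg.SU 6 F 2) • r2 = u from hk] at this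
    rcases this with h | ⟨-, h⟩
    · rw [full_iff.2 fun i => by fin_cases i <;> simp [u, r6, hc]] at h
      norm_num at h
    · simpa [Fin.prod_univ_six, u, r6] using h.symm

end good

section compare
include hF hF9

/-- Two such groups with the same orbit set coincide. -/
theorem eq_of_param {K K' : Subgroup (Cfsg.SU 6 F 2)} (hK : Good F9 K) (hK' : Good F9 K')
    (hP : sylGroup hF ≤ K) (hP' : sylGroup hF ≤ K') {c : F} (hc : c ≠ 0) (h : K ≤ stabO c) (h' : K' ≤ stabO c) :
    K = K' := by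
  set S := stabO (F := F) c
  have hcard := card_good hF hF9 hK
  have hidx : (K.subgroupOf S).index ≤ 2 := by
    have h1 := Subgroup.card_mul_index (K.subgroupOf S)
    rw [Nat.card_congr (Subgroup.subgroupOfEquivOfLe h).toEquiv, hcard] at h1
    have := card_stabO_le hF hc
    change Nat.card ↥S ≤ _ at this
    nlinarith
  haveI hn : (K.subgroupOf S).Normal := by
    have := Subgroup.index_ne_zero_of_finite (H := K.subgroupOf S)
    by_cases h2 : (K.subgroupOf S).index = 2
    · exact Subgroup.normal_of_index_eq_two h2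
    · rw [Subgroup.index_eq_one.1 (by omega : (K.subgroupOf S).index = 1)]; infer_instance
  refine (Subgroup.eq_of_le_of_card_ge ?_ (by rw [hcard, card_good hF hF9 hK'])).symm
  rw [← Subgroup.subgroupOf_eq_top]
  let ι : K' →* S := Subgroup.inclusion h'
  have hN : K.subgroupOf K' = (K.subgroupOf S).comap ι := rfl
  haveI : (K.subgroupOf K').Normal := hN ▸ hn.comap ι
  have hle : (K.subgroupOf K').index ≤ 2 := by
    rw [hN, Subgroup.index_comap]
    exact le_trans (Nat.le_of_dvd (Nat.pos_of_ne_zero Subgroup.index_ne_zero_of_finite)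
      (Subgroup.relIndex_dvd_index_of_normal _ _)) hidx
  obtain ⟨f⟩ := hK'.2
  haveI := isSimpleGroup_psu (n := 4) (q := 3) (F := F9) (by rw [hF9]; norm_num) (by norm_num) (by norm_num)
  let φ : K' →* Cfsg.PSU 4 F9 3 := f.toMonoidHom.comp (QuotientGroup.mk' _)
  have hφs : Function.Surjective φ := f.surjective.comp (QuotientGroup.mk'_surjective _)
  have hker : φ.ker ≤ K.subgroupOf K' := fun z hz => by
    have : z ∈ Subgroup.center K' := by simpa [φ, MonoidHom.mem_ker] using hz
    rw [center_good hF hF9 hK' hP'] at this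
    exact hP (diag_le_syl hF (center_le_diag hF this))
  have himg := Subgroup.index_map_eq (K.subgroupOf K') hφs hker
  rcases (inferInstance : IsSimpleGroup (Cfsg.PSU 4 F9 3)).eq_bot_or_eq_top_of_normal _
      (Subgroup.Normal.map (inferInstance : (K.subgroupOf K').Normal) φ hφs) with hb | ht
  · rw [hb, Subgroup.index_bot, CfsgLib.Leech.natCard_psu_four hF9] at himg
    omega
  · rw [← Subgroup.index_eq_one, ← himg, ht, Subgroup.index_top]

/-- Conjugate groups containing the Sylow subgroup have the same orbit set. -/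
theorem param_eq_of_conj {K K' : Subgroup (Cfsg.SU 6 F 2)} (hK' : Good F9 K')
    (hP : sylGroup hF ≤ K) (hP' : sylGroup hF ≤ K') {c d : F} (hc : K ≤ stabO c) (hd : K' ≤ stabO d)
    {g : Cfsg.SU 6 F 2} (hg : K.map (MulAut.conj g).toMonoidHom = K') : c = d := by
  classical
  haveI : Fact (Nat.Prime 3) := ⟨Nat.prime_three⟩
  have hgP : (sylGroup hF).map (MulAut.conj g).toMonoidHom ≤ K' := hg ▸ Subgroup.map_mono hP
  obtain ⟨S₁, hS₁⟩ := isSylow_of_card hF (P := (sylGroup hF).map (MulAut.conj g).toMonoidHom) (by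
    rw [Subgroup.card_map_of_injective (f := (MulAut.conj g).toMonoidHom) (MulAut.conj g).injective,
      card_sylGroup hF])
  obtain ⟨S₂, hS₂⟩ := isSylow_of_card hF (card_sylGroup hF)
  obtain ⟨k, hk⟩ := MulAction.exists_smul_eq K' (S₁.subtype (hS₁ ▸ hgP)) (S₂.subtype (hS₂ ▸ hP'))
  rw [Sylow.smul_subtype] at hk
  replace hk := Sylow.subtype_injective hk
  set h := (k : Cfsg.SU 6 F 2) * g with hh
  have hPh : (sylGroup hF).map (MulAut.conj h).toMonoidHom = sylGroup hF := by
    conv_rhs => rw [← hS₂, ← hk]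
    rw [Subgroup.smul_def, Sylow.coe_subgroup_smul, hS₁, Subgroup.pointwise_smul_def, hh, map_mul]
    exact (Subgroup.map_map (sylGroup hF) (MulAut.conj (k : Cfsg.SU 6 F 2)).toMonoidHom (MulAut.conj g).toMonoidHom).symm
  have hKh : K.map (MulAut.conj h).toMonoidHom = K' := by
    rw [hh, map_mul]
    ext x
    constructor
    · rintro ⟨y, hy, rfl⟩
      exact mul_mem (mul_mem k.2 (hg ▸ ⟨y, hy, rfl⟩ : g * y * g⁻¹ ∈ K')) (inv_mem k.2)
    · intro hx
      have hx' : (k : Cfsg.SU 6 F 2)⁻¹ * x * k ∈ K' := mul_mem (mul_mem (inv_mem k.2) hx) k.2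
      obtain ⟨y, hy, e⟩ := hg.ge hx'
      refine ⟨y, hy, ?_⟩
      simp only [MulEquiv.coe_toMonoidHom, MulAut.conj_apply, MulAut.mul_apply] at e ⊢
      rw [e]; group
  have hE : (diagGroup hF).map (MulAut.conj h).toMonoidHom = diagGroup hF := by
    refine eq_diagGroup hF (hPh.le.trans' (Subgroup.map_mono (diag_le_syl hF))) ?_ ?_
    · rw [Subgroup.card_map_of_injective (f := (MulAut.conj h).toMonoidHom) (MulAut.conj h).injective,
        card_diagGroup hF]
    · rintro _ ⟨x, hx, rfl⟩ _ ⟨y, hy, rfl⟩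
      refine quasiComm_of_commutator hF ?_
      rw [← map_mul, ← map_mul, ← map_inv, ← map_mul]
      have : x * y = y * x := su_ext (by
        show mat (x * y) = mat (y * x)
        rw [mat_mul, mat_mul,
          ((mem_diagGroup hF).1 hx).eq_monM, ((mem_diagGroup hF).1 hy).eq_monM, monM_mul, monM_mul]
        simp [mul_comm])
      rw [this, mul_inv_cancel, map_one]
      exact one_mem _
  have hhM : h ∈ monGroup hF := by
    refine mem_monGroup_of_normalizes hF fun e he => ?_
    rw [← hE] at he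
    obtain ⟨y, hy, rfl⟩ := he
    simpa [MulAut.conj_apply, mul_assoc] using hy
  have hc' : K' ≤ stabO c := by
    rw [← hKh]
    rintro _ ⟨y, hy, rfl⟩
    exact mul_mem (mul_mem (monomial_mem_stabO hF hhM c) (hc hy)) (inv_mem (monomial_mem_stabO hF hhM c))
  obtain ⟨c₀, -, -, huniq⟩ := exists_param hF hF9 hK' hP'
  exact (huniq c hc').trans (huniq d hd).symm

/-- One such group. -/
theorem exists_good : ∃ K : Subgroup (Cfsg.SU 6 F 2), Good F9 K := by
  classical
  haveI := isSimpleGroup_psu (n := 4) (q := 3) (F := F9) (by rw [hF9]; norm_num) (by norm_num) (by norm_num)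
  open CfsgLib.Leech CfsgLib.Fischer2 in
  obtain ⟨ι, hι⟩ : ∃ ι : Cfsg.PSU 4 F9 3 →* Cfsg.PSU 6 F 2, Function.Injective ι := by
    obtain ⟨hu, hv, huv, hx⟩ := baseFour_spec
    obtain ⟨e4⟩ := nonempty_fix_four hF9
    have hn : ∀ y : leechLattice, coordVec (-y) = -coordVec y := fun y => rfl
    obtain ⟨e6⟩ := nonempty_stab_pair hF (v := baseFourV) (w := -baseFourX) hv
      (by rw [hn, show sqNorm (-coordVec baseFourX) = sqNorm (coordVec baseFourX) from by
        simp [sqNorm]]; exact hx.1)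
      (by rw [hn, dotInt_neg_right, hx.2.2])
    have hle : fixGroup [baseFourX, baseFourV, baseFourU] ≤
        MulAction.stabilizer Co0 baseFourV ⊓ MulAction.stabilizer Co0 (-baseFourX) := fun g hg => by
      rw [Subgroup.mem_inf, MulAction.mem_stabilizer_iff, MulAction.mem_stabilizer_iff, smul_neg_co0,
        mem_fixGroup.1 hg baseFourV (by simp), mem_fixGroup.1 hg baseFourX (by simp)]
      exact ⟨rfl, rfl⟩
    exact ⟨e6.toMonoidHom.comp ((Subgroup.inclusion hle).comp e4.symm.toMonoidHom),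
      e6.injective.comp ((Subgroup.inclusion_injective hle).comp e4.symm.injective)⟩
  let π := QuotientGroup.mk' (Subgroup.center (Cfsg.SU 6 F 2))
  set K := ι.range.comap π
  let ψ : K →* Cfsg.PSU 4 F9 3 :=
    (MonoidHom.ofInjective hι).symm.toMonoidHom.comp ((π.comp K.subtype).codRestrict ι.range fun k => k.2)
  have hψs : Function.Surjective ψ := (MonoidHom.ofInjective hι).symm.surjective.comp fun y => by
    obtain ⟨z, hz⟩ := QuotientGroup.mk'_surjective _ (y : Cfsg.PSU 6 F 2)
    exact ⟨⟨z, by rw [Subgroup.mem_comap]; exact hz ▸ y.2⟩, Subtype.ext hz⟩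
  have hψk : ψ.ker = (Subgroup.center (Cfsg.SU 6 F 2)).subgroupOf K := by
    ext z
    rw [MonoidHom.mem_ker, Subgroup.mem_subgroupOf]
    simp only [ψ, MonoidHom.coe_comp, MulEquiv.coe_toMonoidHom, Function.comp_apply, MulEquiv.map_eq_one_iff]
    exact Subtype.ext_iff.trans (QuotientGroup.eq_one_iff _)
  have hna : ∀ z : Cfsg.PSU 4 F9 3, z ∈ Subgroup.center (Cfsg.PSU 4 F9 3) → z = 1 := by
    rcases (inferInstance : (Subgroup.center (Cfsg.PSU 4 F9 3)).Normal).eq_bot_or_eq_top with h | h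
    · intro z hz; rwa [h, Subgroup.mem_bot] at hz
    · exfalso
      obtain ⟨A, g, hA, -, -, hg⟩ := exists_radical hF9
      have hn : A.Normal := ⟨fun a ha b => by
        rwa [Subgroup.mem_center_iff.1 (h ▸ Subgroup.mem_top a) b, mul_inv_cancel_right]⟩
      rcases hn.eq_bot_or_eq_top with e | e
      · rw [e, Subgroup.card_bot] at hA; norm_num at hA
      · rw [e, Subgroup.card_top, CfsgLib.Leech.natCard_psu_four hF9] at hA; norm_num at hA
  have hcen : Subgroup.center K = ψ.ker := by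
    refine le_antisymm (fun z hz => hna _ (Subgroup.mem_center_iff.2 fun y => ?_)) ?_
    · obtain ⟨w, rfl⟩ := hψs y
      rw [← map_mul, ← map_mul, Subgroup.mem_center_iff.1 hz w]
    · rw [hψk]
      exact fun z hz => Subgroup.mem_center_iff.2 fun y => Subtype.ext (Subgroup.mem_center_iff.1 hz y.1)
  refine ⟨K, ?_, ⟨(QuotientGroup.quotientMulEquivOfEq hcen).trans
    (QuotientGroup.quotientKerEquivOfSurjective ψ hψs)⟩⟩
  rw [hcen, hψk, Nat.card_congr (Subgroup.subgroupOfEquivOfLe fun z hz => ?_).toEquiv, card_center hF]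
  rw [Subgroup.mem_comap, show π z = 1 from (QuotientGroup.eq_one_iff _).2 hz]
  exact one_mem _

/-- Every orbit set occurs. -/
theorem exists_with_param (c : F) (hc : c ≠ 0) :
    ∃ K : Subgroup (Cfsg.SU 6 F 2), Good F9 K ∧ sylGroup hF ≤ K ∧ K ≤ stabO c := by
  classical
  obtain ⟨cj⟩ := conj_exists hF
  obtain ⟨K₀, hK₀⟩ := exists_good hF hF9
  obtain ⟨g, hg⟩ := exists_conj_syl hF hF9 hK₀
  set K₁ := K₀.map (MulAut.conj g).toMonoidHom
  obtain ⟨c₀, hc₀, hle, -⟩ := exists_param hF hF9 (hK₀.conj g) hg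
  set d : Fin 6 → F := ![c / c₀, 1, 1, 1, 1, 1]
  have hd : ∀ i, d i ≠ 0 := fun i => by fin_cases i <;> simp [d, hc, hc₀]
  set D := monM 1 d
  set D' := monM 1 fun i => (d i)⁻¹
  have hDD : D * D' = 1 := by
    rw [monM_mul]; ext i j; simp [monM, Matrix.one_apply, mul_inv_cancel₀ (hd _)]
  have hDD' : D' * D = 1 := by
    rw [monM_mul]; ext i j; simp [monM, Matrix.one_apply, inv_mul_cancel₀ (hd _)]
  have hDh : ∀ e : Fin 6 → F, (∀ i, e i ≠ 0) → ∀ u v,
      hermForm 6 F 2 (monM 1 e *ᵥ u) (monM 1 e *ᵥ v) = hermForm 6 F 2 u v := fun e he u v => by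
    refine Finset.sum_congr rfl fun i _ => ?_
    have h1 : ∀ w : Fin 6 → F, (monM 1 e *ᵥ w) i = e i * w i := fun w => monM_mulVec 1 e w i
    rw [h1, h1]
    linear_combination (u i * v i ^ 2) * cube_eq_one hF (he i)
  let θ : Cfsg.SU 6 F 2 →* Cfsg.SU 6 F 2 := MonoidHom.mk'
    (fun x => ⟨⟨D * mat x * D', by rw [det_mul, det_mul, mul_right_comm, ← det_mul, hDD, det_one, one_mul, x.1.2]⟩,
      fun u v => by
        show hermForm 6 F 2 ((D * mat x * D') *ᵥ u) ((D * mat x * D') *ᵥ v) = _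
        rw [← mulVec_mulVec, ← mulVec_mulVec, ← mulVec_mulVec, ← mulVec_mulVec, hDh d hd, herm_mat,
          hDh _ fun i => inv_ne_zero (hd i)]⟩)
    fun x y => su_ext (show D * mat (x * y) * D' = D * mat x * D' * (D * mat y * D') by
      rw [mat_mul, show D * mat x * D' * (D * mat y * D') = D * mat x * (D' * D) * mat y * D' by
        simp only [mul_assoc], hDD', mul_one]
      simp only [mul_assoc])
  have hθ : ∀ x, mat (θ x) = D * mat x * D' := fun x => rfl
  have hinj : Function.Injective θ := fun x y e => su_ext (by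
    have := congrArg (fun z : Cfsg.SU 6 F 2 => D' * mat z * D) e
    simpa only [hθ, ← mul_assoc, hDD', one_mul, mul_assoc _ D' D, mul_one] using this)
  refine ⟨K₁.map θ, (hK₀.conj g).of_equiv (K₁.equivMapOfInjective θ hinj), fun s hs => ?_, ?_⟩
  · obtain ⟨π, hπ, hm⟩ := (mem_sylGroup hF).1 hs
    obtain ⟨x, hx⟩ := exists_mon hF π (fun j => (d (π j))⁻¹ * mat s (π j) j * d j)
      (fun j => mul_ne_zero (mul_ne_zero (inv_ne_zero (hd _)) (hm.ne_zero hF j)) (hd j)) (by
        rw [Finset.prod_mul_distrib, Finset.prod_mul_distrib, hm.prod_eq hF, mul_one,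
          Equiv.prod_comp π fun j => (d j)⁻¹, ← Finset.prod_mul_distrib,
          Finset.prod_eq_one fun j _ => inv_mul_cancel₀ (hd j)])
    refine ⟨x, hg ((mem_sylGroup hF).2 ⟨π, hπ, by rw [hx]; exact isMon_monM _ _⟩), su_ext ?_⟩
    show mat (θ x) = mat s
    rw [hθ, hx, monM_mul, monM_mul, hm.eq_monM]
    ext i j
    simp only [monM, Matrix.of_apply, Equiv.Perm.coe_mul, Function.comp_apply, Equiv.Perm.coe_one, id_eq, one_mul, mul_one]
    split_ifs
    · field_simp [hd]
    · rfl
  · rintro _ ⟨x, hx, rfl⟩ v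
    have hval : ∀ (e w : Fin 6 → F) (i), (monM 1 e *ᵥ w) i = e i * w i := fun e w i => monM_mulVec 1 e w i
    have hO : ∀ w, InO c (D *ᵥ w) ↔ InO c₀ w := fun w => by
      have hs : supp (D *ᵥ w) = supp w := Finset.ext fun i => by
        simp [mem_supp, D, hval, hd]
      have hp : ∏ i, (D *ᵥ w) i = c / c₀ * ∏ i, w i := by
        simp only [D, hval, Finset.prod_mul_distrib]
        simp [Fin.prod_univ_six, d]
      rw [InO, InO, wt, wt, hs, hp]
      refine or_congr Iff.rfl (and_congr Iff.rfl ?_)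
      rw [div_mul_eq_mul_div, div_eq_iff hc₀]
      exact ⟨fun h => mul_left_cancel₀ hc (by linear_combination h), fun h => by rw [h]⟩
    have hv : v = D *ᵥ (D' *ᵥ v) := by rw [mulVec_mulVec, hDD, one_mulVec]
    rw [smul_def, hθ, ← mulVec_mulVec, ← mulVec_mulVec, hO, ← smul_def, hle hx, ← hO, ← hv]

end compare

end CfsgLib.UnitarySixFour
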