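import Cfsg.Agent.Lib.ClassicalForms.Unitary.Center

/-!
# An abelian subgroup of order 81 of `PSU₄(3)` normalised by an element of order 5

The transvection group of a totally isotropic line, written in an explicit basis over `F₉ = F₃(a)`, `a² = a + 1`.
-/

set_option autoImplicit false
set_option maxHeartbeats 1000000
set_option linter.unusedSimpArgs false

namespace CfsgLib.UnitarySixFour

open Cfsg Matrix CfsgLib.ClassicalForms

variable {F : Type*} [Field F]

/-- Matrices preserving the standard form. -/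
theorem preserve_of {n q : ℕ} (c : Conj F q) (M : Matrix (Fin n) (Fin n) F) (hM : Mᵀ * M.map c.σ = 1)
    (u v : Fin n → F) : hermForm n F q (M *ᵥ u) (M *ᵥ v) = hermForm n F q u v := by
  have key : ∀ x y : Fin n → F, hermForm n F q x y = x ⬝ᵥ (c.σ ∘ y) := fun x y => c.herm_apply x y
  have hm : c.σ ∘ (M *ᵥ v) = M.map c.σ *ᵥ (c.σ ∘ v) := funext fun i => RingHom.map_mulVec c.σ M v i
  rw [key, key, hm, dotProduct_mulVec, ← vecMul_transpose, vecMul_vecMul, hM, vecMul_one]

/-- Member of `SU` given by a matrix. -/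
def mkSU {n q : ℕ} (c : Conj F q) (M : Matrix (Fin n) (Fin n) F) (hM : Mᵀ * M.map c.σ = 1) (hd : M.det = 1) :
    Cfsg.SU n F q :=
  ⟨⟨M, hd⟩, preserve_of c M hM⟩

theorem coe_mkSU {n q : ℕ} (c : Conj F q) (M : Matrix (Fin n) (Fin n) F) (hM : Mᵀ * M.map c.σ = 1) (hd : M.det = 1) :
    ((mkSU c M hM hd : Cfsg.SU n F q).1 : Matrix (Fin n) (Fin n) F) = M := rfl

theorem su_ext {n q : ℕ} {g h : Cfsg.SU n F q}
    (e : (g.1 : Matrix (Fin n) (Fin n) F) = (h.1 : Matrix (Fin n) (Fin n) F)) : g = h :=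
  Subtype.ext (Subtype.ext e)

section Model

variable (a : F)

/-- The basis of the line. -/
def lineU : Matrix (Fin 4) (Fin 2) F := !![1, 0; a, 0; 0, 1; 0, a]

/-- The second factor of a transvection. -/
def lineW (α β t t' : F) : Matrix (Fin 2) (Fin 4) F :=
  !![α, α * a ^ 3, t, t * a ^ 3; -t', -t' * a ^ 3, β, β * a ^ 3]

/-- The transvection group of the line. -/
def mT (α β t t' : F) : Matrix (Fin 4) (Fin 4) F := 1 + lineU a * lineW a α β t t'

/-- An element of order five preserving the line. -/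
def mG : Matrix (Fin 4) (Fin 4) F :=
  !![1 - a, -1 - a, -1, 0; 1, 1 - a, 0, -1; 1, 0, a, 1; 0, 1, a + 1, a]

variable {a}
variable (ha : a ^ 2 = a + 1) (h3 : (3 : F) = 0)
include ha h3

theorem mT_mul (α β t t' α₁ β₁ t₁ t₁' : F) :
    mT a α β t t' * mT a α₁ β₁ t₁ t₁' = mT a (α + α₁) (β + β₁) (t + t₁) (t' + t₁') := by
  ext i j; fin_cases i <;> fin_cases j <;>
    simp [mT, lineU, lineW, Matrix.mul_apply, Fin.sum_univ_succ, Matrix.one_apply] <;> grind

theorem det_mT (α β t t' : F) : (mT a α β t t').det = 1 := by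
  rw [mT, det_one_add_mul_comm]
  have : lineW a α β t t' * lineU a = 0 := by
    ext i j; fin_cases i <;> fin_cases j <;>
      simp [lineU, lineW, Matrix.mul_apply, Fin.sum_univ_succ] <;> grind
  rw [this, add_zero, det_one]

theorem mG_pow : mG a ^ 5 = 1 := by
  rw [show mG a ^ 5 = mG a * mG a * (mG a * mG a) * mG a by simp only [pow_succ, pow_zero, one_mul, mul_assoc]]
  ext i j; fin_cases i <;> fin_cases j <;>
    simp [mG, Matrix.mul_apply, Fin.sum_univ_succ, Matrix.one_apply] <;> grind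

theorem mG_mT (α β t t' : F) :
    mG a * mT a α β t t' = mT a β (α - β + a * t' - (1 - a) * t) (t' + (1 - a) * β) (t - a * β) * mG a := by
  ext i j; fin_cases i <;> fin_cases j <;>
    simp [mT, mG, lineU, lineW, Matrix.mul_apply, Fin.sum_univ_succ, Matrix.one_apply] <;> grind

end Model

variable [Fintype F] (hF : Fintype.card F = 9)
include hF

theorem three_eq_zero : (3 : F) = 0 := by
  have h : ((9 : ℕ) : F) = 0 := by rw [← hF]; exact Nat.cast_card_eq_zero F
  have h' : (3 : F) * 3 = 0 := by rw [← h]; norm_num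
  exact mul_self_eq_zero.1 h'

theorem exists_root : ∃ a : F, a ^ 2 = a + 1 := by
  classical
  have h3 := three_eq_zero hF
  obtain ⟨z, hz⟩ := IsCyclic.exists_generator (α := Fˣ)
  have ho : orderOf z = 8 := by
    rw [orderOf_eq_card_of_forall_mem_zpowers hz, Nat.card_units, Nat.card_eq_fintype_card, hF]
  have h8 : ((z : F)) ^ 8 = 1 := by
    rw [← Units.val_pow_eq_pow_val, ← ho, pow_orderOf_eq_one, Units.val_one]
  have h4 : ((z : F)) ^ 4 ≠ 1 := fun h => by
    have : z ^ 4 = 1 := Units.ext (by simpa using h)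
    have := orderOf_dvd_of_pow_eq_one this
    rw [ho] at this
    norm_num at this
  have h44 : ((z : F)) ^ 4 = -1 := by
    have : ((z : F) ^ 4 - 1) * ((z : F) ^ 4 + 1) = 0 := by linear_combination h8
    rcases mul_eq_zero.1 this with h | h
    · exact absurd (sub_eq_zero.1 h) h4
    · exact eq_neg_of_add_eq_zero_left h
  have : ((z : F) ^ 2 - z - 1) * (((-(z : F)) ^ 2) - (-(z : F)) - 1) = 0 := by
    linear_combination h44 - ((z : F) ^ 2) * h3
  rcases mul_eq_zero.1 this with h | h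
  exacts [⟨z, by linear_combination h⟩, ⟨-z, by linear_combination h⟩]

/-- `PSU₄(3)` has an abelian subgroup of order 81 normalised by an element of order 5. -/
theorem exists_radical : ∃ (A : Subgroup (Cfsg.PSU 4 F 3)) (g : Cfsg.PSU 4 F 3),
    Nat.card A = 81 ∧ (∀ x ∈ A, ∀ y ∈ A, x * y = y * x) ∧ g ∈ Subgroup.normalizer (A : Set (Cfsg.PSU 4 F 3)) ∧
      orderOf g = 5 := by
  classical
  have h3 := three_eq_zero hF
  obtain ⟨a, ha⟩ := exists_root hF
  have hN : Nat.card F = 3 ^ 2 := by rw [Nat.card_eq_fintype_card, hF]; norm_num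
  obtain ⟨c⟩ := exists_conj hN
  have : Fact (Nat.Prime 3) := ⟨Nat.prime_three⟩
  have : CharP F 3 := charP_of_card_eq_prime_pow (p := 3) (f := 2) (by rw [hF]; norm_num)
  have hσa : c.σ a = 1 - a := by rw [c.apply]; grind
  have hσi : ∀ x, c.σ (c.σ x) = x := c.invol
  let κ : ZMod 3 →+* F := ZMod.castHom dvd_rfl F
  have hσκ : ∀ k, c.σ (κ k) = κ k := fun k => RingHom.congr_fun (Subsingleton.elim (c.σ.comp κ) κ) k
  have hskew : ∀ k, c.σ (κ k * a ^ 2) = -(κ k * a ^ 2) := fun k => by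
    rw [map_mul, map_pow, hσκ, hσa]; grind
  have hskew' : ∀ x, c.σ x = -x → ∃ k, x = κ k * a ^ 2 := by
    intro x hx
    rw [c.apply] at hx
    have hx' : x * ((x - a ^ 2) * (x + a ^ 2)) = 0 := by grind
    rcases mul_eq_zero.1 hx' with h | h
    · exact ⟨0, by simp [h]⟩
    rcases mul_eq_zero.1 h with h | h
    · exact ⟨1, by simp [sub_eq_zero.1 h]⟩
    · exact ⟨-1, by rw [map_neg, map_one, eq_neg_of_add_eq_zero_left h]; ring⟩
  have hpres : ∀ α β t, c.σ α = -α → c.σ β = -β →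
      (mT a α β t (c.σ t))ᵀ * (mT a α β t (c.σ t)).map c.σ = 1 := by
    intro α β t hα hβ
    ext i j; fin_cases i <;> fin_cases j <;>
      simp [mT, lineU, lineW, Matrix.mul_apply, Fin.sum_univ_succ, Matrix.one_apply, hσa, hα, hβ, hσi] <;> grind
  let f : ZMod 3 × ZMod 3 × F → Cfsg.SU 4 F 3 := fun p =>
    mkSU c (mT a (κ p.1 * a ^ 2) (κ p.2.1 * a ^ 2) p.2.2 (c.σ p.2.2)) (hpres _ _ _ (hskew _) (hskew _))
      (det_mT ha h3 _ _ _ _)
  have hf : ∀ p p', f (p + p') = f p * f p' := fun p p' => su_ext (by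
    show mT a (κ (p.1 + p'.1) * a ^ 2) (κ (p.2.1 + p'.2.1) * a ^ 2) (p.2.2 + p'.2.2) (c.σ (p.2.2 + p'.2.2)) =
      mT a _ _ _ _ * mT a _ _ _ _
    rw [mT_mul ha h3]
    simp only [map_add, add_mul])
  have ha0 : a ≠ 0 := by rintro rfl; simp at ha
  have hinj : ∀ p, f p = 1 → p = 0 := by
    rintro ⟨r, s, t⟩ e
    have e' : mT a (κ r * a ^ 2) (κ s * a ^ 2) t (c.σ t) = 1 :=
      congrArg (fun g : Cfsg.SU 4 F 3 => (g.1 : Matrix (Fin 4) (Fin 4) F)) e
    have e00 := congrFun (congrFun e' 0) 0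
    have e02 := congrFun (congrFun e' 0) 2
    have e22 := congrFun (congrFun e' 2) 2
    simp [mT, lineU, lineW, Matrix.mul_apply, Fin.sum_univ_succ, Matrix.one_apply, ha0] at e00 e02 e22
    simp [e00, e02, e22]
  let φ : Multiplicative (ZMod 3 × ZMod 3 × F) →* Cfsg.PSU 4 F 3 :=
    (QuotientGroup.mk' _).comp (MonoidHom.mk' (fun p => f p.toAdd) fun p p' => hf _ _)
  have hcard : Nat.card (Multiplicative (ZMod 3 × ZMod 3 × F)) = 81 := by
    rw [Nat.card_congr Multiplicative.toAdd, Nat.card_prod, Nat.card_prod, Nat.card_zmod,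
      Nat.card_eq_fintype_card, hF]
  have hZ : Nat.card (Subgroup.center (Cfsg.SU 4 F 3)) = 4 := by
    rw [card_center_su hN (by norm_num)]; norm_num
  have hφ : Function.Injective φ := by
    rw [injective_iff_map_eq_one]
    intro p hp
    have hmem : f p.toAdd ∈ Subgroup.center (Cfsg.SU 4 F 3) := (QuotientGroup.eq_one_iff _).1 hp
    have h1 : orderOf (f p.toAdd) ∣ 81 := by
      rw [← hcard]
      exact (orderOf_map_dvd (MonoidHom.mk' (fun p => f (Multiplicative.toAdd p)) fun p p' => hf _ _) p).trans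
        (orderOf_dvd_natCard p)
    have h2 : orderOf (f p.toAdd) ∣ 4 := by
      have := orderOf_dvd_natCard (⟨_, hmem⟩ : Subgroup.center (Cfsg.SU 4 F 3))
      rw [Subgroup.orderOf_mk, hZ] at this
      exact this
    have := Nat.eq_one_of_dvd_coprimes (by norm_num) h1 h2
    exact Multiplicative.toAdd.injective (hinj _ (orderOf_eq_one_iff.1 this))
  have hσd : c.σ (-1 : F) = -1 := by rw [map_neg, map_one]
  have hG : (mG a)ᵀ * (mG a).map c.σ = 1 := by
    ext i j; fin_cases i <;> fin_cases j <;>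
      simp [mG, Matrix.mul_apply, Fin.sum_univ_succ, Matrix.one_apply, hσa] <;> grind
  have hGd : (mG a).det = 1 := by
    have h5 : (mG a).det ^ 5 = 1 := by rw [← det_pow, mG_pow ha h3, det_one]
    have h8 : (mG a).det ^ 8 = 1 := by
      have := FiniteField.pow_card_sub_one_eq_one (mG a).det (fun h => by simp [h] at h5)
      rwa [hF] at this
    calc (mG a).det = ((mG a).det ^ 8) ^ 2 / ((mG a).det ^ 5) ^ 3 := by
          rw [eq_div_iff (by rw [h5]; simp)]; ring
      _ = 1 := by rw [h8, h5]; simp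
  let g : Cfsg.SU 4 F 3 := mkSU c (mG a) hG hGd
  refine ⟨φ.range, QuotientGroup.mk g, ?_, ?_, ?_, ?_⟩
  · rw [← Nat.card_congr (MonoidHom.ofInjective hφ).toEquiv, hcard]
  · rintro _ ⟨x, rfl⟩ _ ⟨y, rfl⟩
    rw [← map_mul, ← map_mul, mul_comm]
  · have hmap : ∀ x ∈ φ.range, (QuotientGroup.mk g : Cfsg.PSU 4 F 3) * x * (QuotientGroup.mk g)⁻¹ ∈ φ.range := by
      rintro _ ⟨p, rfl⟩
      obtain ⟨⟨r, s, t⟩, rfl⟩ : ∃ q, Multiplicative.ofAdd q = p := ⟨p.toAdd, rfl⟩
      obtain ⟨k, hk⟩ := hskew' (κ r * a ^ 2 - κ s * a ^ 2 + a * c.σ t - (1 - a) * t) (by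
        rw [map_sub, map_add, map_sub, map_mul c.σ a, map_mul c.σ (1 - a), hskew, hskew, hσi, map_sub, map_one,
          hσa]
        ring)
      refine ⟨Multiplicative.ofAdd (s, k, c.σ t + (1 - a) * (κ s * a ^ 2)), ?_⟩
      have e : g * f (r, s, t) = f (s, k, c.σ t + (1 - a) * (κ s * a ^ 2)) * g := by
        refine su_ext ?_
        show mG a * mT a _ _ _ _ = mT a _ _ _ _ * mG a
        rw [mG_mT ha h3, hk]
        congr 2
        rw [map_add, map_mul, hskew, hσi, map_sub, map_one, hσa]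
        ring
      show QuotientGroup.mk' _ _ = QuotientGroup.mk' _ g * QuotientGroup.mk' _ _ * (QuotientGroup.mk' _ g)⁻¹
      rw [eq_mul_inv_iff_mul_eq, ← map_mul, ← map_mul]
      exact congrArg _ e.symm
    refine Subgroup.mem_normalizer_iff_map_conj_eq.2 (Subgroup.eq_of_le_of_card_ge ?_ ?_)
    · rintro _ ⟨x, hx, rfl⟩
      exact hmap x hx
    · rw [Subgroup.card_map_of_injective (MulEquiv.injective _)]
  · have := Fact.mk (show Nat.Prime 5 by norm_num)
    have hg5 : g ^ 5 = 1 := su_ext (by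
      show ((g ^ 5).1 : Matrix (Fin 4) (Fin 4) F) = 1
      rw [SubmonoidClass.coe_pow, Matrix.SpecialLinearGroup.coe_pow]
      exact mG_pow ha h3)
    refine orderOf_eq_prime (by rw [← QuotientGroup.mk_pow, hg5]; rfl) fun h => ?_
    have hmem : g ∈ Subgroup.center (Cfsg.SU 4 F 3) := (QuotientGroup.eq_one_iff g).1 h
    have h2 : orderOf g ∣ 4 := by
      have := orderOf_dvd_natCard (⟨_, hmem⟩ : Subgroup.center (Cfsg.SU 4 F 3))
      rw [Subgroup.orderOf_mk, hZ] at this
      exact this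
    have h1 := Nat.eq_one_of_dvd_coprimes (by norm_num) (orderOf_dvd_of_pow_eq_one hg5) h2
    have := congrFun (congrFun (congrArg (fun g : Cfsg.SU 4 F 3 => (g.1 : Matrix (Fin 4) (Fin 4) F))
      (orderOf_eq_one_iff.1 h1)) 1) 0
    simp [g, mkSU, mG, Matrix.one_apply] at this

end CfsgLib.UnitarySixFour
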