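import Cfsg.Agent.Lib.UnitarySixFour.Frame

/-!
# The orbit of 126 isotropic points and the bound on its stabilizer
-/

set_option autoImplicit false
set_option linter.unusedSimpArgs false
set_option linter.unusedSectionVars false
set_option maxHeartbeats 800000

namespace CfsgLib.UnitarySixFour

open Cfsg Matrix CfsgLib.ClassicalForms

/-- Number of nonzero coordinates of a coded vector. -/
def wtW (w : Fin 6 → Option (ZMod 3)) : ℕ := (Finset.univ.filter fun i => w i ≠ none).card

theorem count_wt : Fintype.card {w : Fin 6 → Option (ZMod 3) // wtW w = 2} = 135 ∧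
    Fintype.card {w : Fin 6 → Option (ZMod 3) // wtW w = 4} = 1215 ∧
    Fintype.card {w : Fin 6 → Option (ZMod 3) // Odd (wtW w)} = 2016 := by decide +kernel

theorem count_full : ∀ k : ZMod 3,
    Fintype.card {x : Fin 6 → ZMod 3 // ∑ i, x i = k} = 243 := by decide +kernel

theorem perm_pair : ∀ i j : Fin 6, i ≠ j →
    ∃ π : Equiv.Perm (Fin 6), Equiv.Perm.sign π = 1 ∧ π 0 = i ∧ π 1 = j := by decide +kernel

theorem perm_quad : ∀ i j : Fin 6, i ≠ j →
    ∃ π : Equiv.Perm (Fin 6), Equiv.Perm.sign π = 1 ∧ π 4 = i ∧ π 5 = j := by decide +kernel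

theorem supp_two : ∀ s : Finset (Fin 6), s.card = 2 → ∃ i j, i ≠ j ∧ s = {i, j} := fun _ h =>
  Finset.card_eq_two.1 h

theorem supp_four : ∀ s : Finset (Fin 6), s.card = 4 →
    ∃ i j, i ≠ j ∧ s = (Finset.univ.erase i).erase j := by decide +kernel

variable {F : Type*} [Field F]

/-- Action on vectors. -/
@[instance_reducible]
noncomputable def suSMul : MulAction (Cfsg.SU 6 F 2) (Fin 6 → F) where
  smul g v := mat g *ᵥ v
  one_smul v := show mat (1 : Cfsg.SU 6 F 2) *ᵥ v = v by rw [mat_one, one_mulVec]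
  mul_smul g h v := show mat (g * h) *ᵥ v = mat g *ᵥ (mat h *ᵥ v) by rw [mat_mul, mulVec_mulVec]

attribute [local instance] suSMul

theorem smul_def (g : Cfsg.SU 6 F 2) (v : Fin 6 → F) : g • v = mat g *ᵥ v := rfl

open Classical in
/-- The support. -/
noncomputable def supp (v : Fin 6 → F) : Finset (Fin 6) := Finset.univ.filter fun i => v i ≠ 0

theorem mem_supp {v : Fin 6 → F} {i : Fin 6} : i ∈ supp v ↔ v i ≠ 0 := by simp [supp]

/-- Weight. -/
noncomputable def wt (v : Fin 6 → F) : ℕ := (supp v).card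

/-- The orbit set. -/
def InO (c : F) (v : Fin 6 → F) : Prop := wt v = 2 ∨ (wt v = 6 ∧ ∏ i, v i = c)

/-- Its stabilizer. -/
def stabO (c : F) : Subgroup (Cfsg.SU 6 F 2) where
  carrier := {g | ∀ v, InO c (g • v) ↔ InO c v}
  one_mem' v := by rw [one_smul]
  mul_mem' {g h} hg hh v := by rw [mul_smul, hg, hh]
  inv_mem' {g} hg v := by rw [← hg, smul_inv_smul]

theorem full_iff {v : Fin 6 → F} : wt v = 6 ↔ ∀ i, v i ≠ 0 := by
  simp only [← mem_supp]
  constructor
  · intro h i
    rw [Finset.eq_univ_of_card (supp v) (by rw [← wt, h]; rfl)]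
    exact Finset.mem_univ i
  · intro h
    rw [wt, Finset.eq_univ_iff_forall.2 h]
    rfl

theorem smul_monomial {g : Cfsg.SU 6 F 2} {π : Equiv.Perm (Fin 6)} {d : Fin 6 → F} (h : mat g = monM π d)
    (v : Fin 6 → F) (j : Fin 6) : (g • v) (π j) = d j * v j := by
  rw [smul_def, h, monM_mulVec]

variable [Fintype F] (hF : Fintype.card F = 4)
include hF

theorem herm_self_wt (v : Fin 6 → F) : hermForm 6 F 2 v v = (wt v : F) := by
  classical
  rw [hermForm, wt, supp, Finset.natCast_card_filter]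
  refine Finset.sum_congr rfl fun i _ => ?_
  split_ifs with h
  · rw [← pow_succ', cube_eq_one hF h]
  · rw [not_not.1 h]; simp

theorem odd_wt_iff (v : Fin 6 → F) : hermForm 6 F 2 v v = 1 ↔ Odd (wt v) := by
  have h2 := two_eq_zero hF
  rw [herm_self_wt hF]
  rcases Nat.even_or_odd (wt v) with ⟨k, hk⟩ | ⟨k, hk⟩ <;> rw [hk] <;> push_cast
  · rw [show (k : F) + k = 0 by linear_combination (k : F) * h2]
    simp [← Nat.not_even_iff_odd]
  · rw [h2, zero_mul, zero_add]
    simp

theorem isotropic_cases {v : Fin 6 → F} (hv : v ≠ 0) (h : hermForm 6 F 2 v v = 0) :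
    wt v = 2 ∨ wt v = 4 ∨ wt v = 6 := by
  have h0 : wt v ≠ 0 := fun h0 => hv (funext fun i => by
    have := Finset.card_eq_zero.1 h0
    by_contra hi
    exact Finset.notMem_empty i (this ▸ mem_supp.2 hi))
  have h1 : ¬ Odd (wt v) := fun ho => by
    rw [(odd_wt_iff hF v).2 ho] at h
    exact one_ne_zero h
  have h6 : wt v ≤ 6 := (Finset.card_le_univ _).trans (by simp)
  rw [Nat.odd_iff] at h1
  omega

theorem coded : ∃ Φ : (Fin 6 → F) ≃ (Fin 6 → Option (ZMod 3)), (∀ v, wtW (Φ v) = wt v) ∧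
    ∀ c : F, c ≠ 0 → Nat.card {v : Fin 6 → F // wt v = 6 ∧ ∏ i, v i = c} = 243 := by
  classical
  obtain ⟨e, he, he0, hem, hes⟩ := exists_log hF
  let f : Option (ZMod 3) → F := fun o => o.elim 0 e
  have hf : Function.Bijective f := by
    refine ⟨?_, fun u => ?_⟩
    · rintro (_ | x) (_ | y) h
      · rfl
      · exact absurd h.symm (he0 y)
      · exact absurd h (he0 x)
      · exact congrArg some (he h)
    · by_cases hu : u = 0
      · exact ⟨none, hu.symm⟩
      · obtain ⟨x, rfl⟩ := hes u hu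
        exact ⟨some x, rfl⟩
  let E : Option (ZMod 3) ≃ F := Equiv.ofBijective f hf
  refine ⟨Equiv.arrowCongr (Equiv.refl _) E.symm, fun v => ?_, fun c hc => ?_⟩
  · refine congrArg Finset.card (Finset.ext fun i => ?_)
    simp only [Finset.mem_filter, Finset.mem_univ, true_and, Equiv.arrowCongr_apply, Equiv.refl_symm,
      Equiv.coe_refl, Function.comp_apply, id_eq, mem_supp, ne_eq, Equiv.symm_apply_eq]
    rfl
  · obtain ⟨k, rfl⟩ := hes c hc
    have hprod : ∀ x : Fin 6 → ZMod 3, ∏ j, e (x j) = e (∑ j, x j) := fun x => by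
      simp [Fin.sum_univ_six, Fin.prod_univ_six, hem]
    rw [← count_full k, ← Nat.card_eq_fintype_card]
    refine (Nat.card_eq_of_bijective (fun x => (⟨fun j => e (x.1 j), full_iff.2 fun j => he0 _,
      by rw [hprod, x.2]⟩ : {v : Fin 6 → F // wt v = 6 ∧ ∏ i, v i = e k})) ⟨fun x y h => ?_, ?_⟩).symm
    · exact Subtype.ext (funext fun j => he (congrFun (congrArg Subtype.val h) j))
    · rintro ⟨v, hv, hp⟩
      choose x hx using fun j => hes _ (full_iff.1 hv j)
      refine ⟨⟨x, he (by rw [← hprod]; simp only [hx]; exact hp)⟩, Subtype.ext (funext hx)⟩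

theorem ncard_wt (k n : ℕ) (h : Fintype.card {w : Fin 6 → Option (ZMod 3) // wtW w = k} = n) :
    {v : Fin 6 → F | wt v = k}.ncard = n := by
  obtain ⟨Φ, hΦ, -⟩ := coded hF
  rw [← Nat.card_coe_set_eq, ← h, ← Nat.card_eq_fintype_card]
  exact Nat.card_congr (Φ.subtypeEquiv fun v => by simp [hΦ])

theorem ncard_full {c : F} (hc : c ≠ 0) : {v : Fin 6 → F | wt v = 6 ∧ ∏ i, v i = c}.ncard = 243 := by
  obtain ⟨_, -, h⟩ := coded hF
  rw [← Nat.card_coe_set_eq]
  exact h c hc

theorem monomial_mem_stabO {g : Cfsg.SU 6 F 2} (hg : g ∈ monGroup hF) (c : F) : g ∈ stabO c := by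
  intro v
  obtain ⟨π, hπ⟩ := hg
  have hv : ∀ j, (g • v) (π j) = mat g (π j) j * v j := smul_monomial hπ.eq_monM v
  have hs : supp (g • v) = (supp v).map π.toEmbedding := Finset.ext fun i => by
    obtain ⟨j, rfl⟩ := π.surjective i
    rw [Finset.mem_map_equiv, Equiv.symm_apply_apply, mem_supp, mem_supp, hv]
    simp [hπ.ne_zero hF j]
  have hp : ∏ i, (g • v) i = ∏ i, v i := by
    rw [← Equiv.prod_comp π]
    simp only [hv, Finset.prod_mul_distrib, hπ.prod_eq hF, one_mul]
  rw [InO, InO, wt, hs, Finset.card_map, hp]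
  rfl

/-- The stabilizer of a coordinate vector in the stabilizer of the orbit set is monomial and small. -/
theorem card_stab_single_le {c : F} (hc : c ≠ 0) :
    Nat.card ↥(stabO c ⊓ MulAction.stabilizer (Cfsg.SU 6 F 2) (Pi.single 0 1 : Fin 6 → F)) ≤ 9720 := by
  classical
  obtain ⟨cj⟩ := conj_exists hF
  obtain ⟨ω, hω0, hω1, -⟩ := exists_omega hF
  set S := stabO c ⊓ MulAction.stabilizer (Cfsg.SU 6 F 2) (Pi.single 0 1 : Fin 6 → F)
  have hcol : ∀ g ∈ S, ∀ j, j ≠ 0 → mat g 0 j = 0 ∧ wt (g • (Pi.single j 1 : Fin 6 → F)) = 1 := by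
    rintro g ⟨hgO, hg0⟩ j hj
    have hg0' : g • (Pi.single 0 1 : Fin 6 → F) = Pi.single 0 1 := hg0
    set m := g • (Pi.single j 1 : Fin 6 → F) with hm
    have hm0 : m 0 = 0 := by
      have h := herm_mat g (Pi.single j 1) (Pi.single 0 1)
      rw [← smul_def, ← smul_def, hg0', cj.single_right, cj.single_right, Pi.single_eq_of_ne (Ne.symm hj)] at h
      exact h
    refine ⟨by rwa [hm, smul_def, mulVec_single_one] at hm0, ?_⟩
    have hz : ∀ ζ : F, ζ ≠ 0 → InO c (ζ • (Pi.single 0 1 : Fin 6 → F) + m) := fun ζ hζ => by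
      have : g • (ζ • (Pi.single 0 1 : Fin 6 → F) + Pi.single j 1) = ζ • (Pi.single 0 1 : Fin 6 → F) + m := by
        rw [hm, smul_def, smul_def, mulVec_add, mulVec_smul, ← smul_def, hg0']
      rw [← this]
      refine (hgO _).2 (Or.inl ?_)
      rw [wt, Finset.card_eq_two]
      refine ⟨0, j, Ne.symm hj, Finset.ext fun i => ?_⟩
      rw [mem_supp, Finset.mem_insert, Finset.mem_singleton]
      by_cases h0 : i = 0
      · subst h0; simp [hζ, Pi.single_eq_of_ne (Ne.symm hj)]
      · by_cases hij : i = j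
        · subst hij; simp [Pi.single_eq_of_ne h0]
        · simp [Pi.single_eq_of_ne h0, Pi.single_eq_of_ne hij, h0, hij]
    have hsupp : ∀ ζ : F, ζ ≠ 0 → supp (ζ • (Pi.single 0 1 : Fin 6 → F) + m) = insert 0 (supp m) := fun ζ hζ =>
      Finset.ext fun i => by
        rw [Finset.mem_insert, mem_supp, mem_supp]
        by_cases h0 : i = 0
        · subst h0; simp [hm0, hζ]
        · simp [Pi.single_eq_of_ne h0, h0]
    have hwt : ∀ ζ : F, ζ ≠ 0 → wt (ζ • (Pi.single 0 1 : Fin 6 → F) + m) = wt m + 1 := fun ζ hζ => by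
      rw [wt, hsupp ζ hζ, Finset.card_insert_of_notMem (by simp [mem_supp, hm0]), wt]
    rcases hz 1 one_ne_zero with h | ⟨h, hp⟩
    · rw [hwt 1 one_ne_zero] at h; omega
    · exfalso
      rcases hz ω hω0 with h' | ⟨h', hp'⟩
      · rw [hwt ω hω0] at h'; rw [hwt 1 one_ne_zero] at h; omega
      · have e : ∀ ζ : F, ∏ i, (ζ • (Pi.single 0 1 : Fin 6 → F) + m) i = ζ * ∏ i ∈ Finset.univ.erase 0, m i :=
          fun ζ => by
          rw [← Finset.mul_prod_erase Finset.univ _ (Finset.mem_univ 0)]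
          congr 1
          · simp [hm0]
          · exact Finset.prod_congr rfl fun i hi => by simp [Pi.single_eq_of_ne (Finset.ne_of_mem_erase hi)]
        rw [e, one_mul] at hp
        rw [e, hp] at hp'
        exact hω1 ((mul_eq_right₀ hc).1 hp')
  have hmon : ∀ g ∈ S, ∃ π, IsMon (mat g) π ∧ π 0 = 0 ∧ mat g 0 0 = 1 := by
    intro g hg
    have hg0' : g • (Pi.single 0 1 : Fin 6 → F) = Pi.single 0 1 := hg.2
    have hc0 : ∀ k, mat g k 0 = (Pi.single 0 1 : Fin 6 → F) k := fun k => by
      have := congrFun hg0' k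
      rwa [smul_def, mulVec_single_one] at this
    have hex : ∀ j, ∃ i, ∀ k, k ≠ i → mat g k j = 0 := fun j => by
      by_cases hj : j = 0
      · exact ⟨0, fun k hk => by rw [hj, hc0, Pi.single_eq_of_ne hk]⟩
      · obtain ⟨i, hi⟩ := Finset.card_eq_one.1 (hcol g hg j hj).2
        refine ⟨i, fun k hk => by_contra fun h0 => hk (Finset.mem_singleton.1 (hi ▸ mem_supp.2 ?_))⟩
        rwa [smul_def, mulVec_single_one]
    obtain ⟨π, hπ⟩ := isMon_of_col hF hex
    have hπ0 : π 0 = 0 := by
      by_contra h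
      have := hπ.ne_zero hF 0
      rw [hc0, Pi.single_eq_of_ne h] at this
      exact this rfl
    exact ⟨π, hπ, hπ0, by rw [hc0, Pi.single_eq_same]⟩
  choose π hπ hπ0 hg00 using hmon
  let T := {p : Equiv.Perm (Fin 6) // p 0 = 0} × (Fin 4 → Fˣ)
  let ι : ↥S → T := fun g => (⟨π g g.2, hπ0 g g.2⟩,
    fun i => Units.mk0 _ ((hπ g g.2).ne_zero hF i.succ.castSucc))
  have hι : Function.Injective ι := by
    intro g g' h
    have e1 : π g g.2 = π g' g'.2 := congrArg (fun t : T => t.1.1) h
    have e2 : ∀ i : Fin 4, mat g.1 (π g g.2 i.succ.castSucc) i.succ.castSucc =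
        mat g'.1 (π g' g'.2 i.succ.castSucc) i.succ.castSucc := fun i =>
      congrArg (fun t : T => ((t.2 i : Fˣ) : F)) h
    have a := (hπ g g.2).prod_eq hF
    have b := (hπ g' g'.2).prod_eq hF
    rw [Fin.prod_univ_six] at a b
    have e0 : mat g.1 (π g g.2 0) 0 = mat g'.1 (π g' g'.2 0) 0 := by rw [hπ0, hπ0, hg00 _ g.2, hg00 _ g'.2]
    have h1 := e2 0; have h2 := e2 1; have h3 := e2 2; have h4 := e2 3
    change mat g.1 (π g g.2 1) 1 = mat g'.1 (π g' g'.2 1) 1 at h1
    change mat g.1 (π g g.2 2) 2 = mat g'.1 (π g' g'.2 2) 2 at h2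
    change mat g.1 (π g g.2 3) 3 = mat g'.1 (π g' g'.2 3) 3 at h3
    change mat g.1 (π g g.2 4) 4 = mat g'.1 (π g' g'.2 4) 4 at h4
    rw [e0, h1, h2, h3, h4, ← b] at a
    have h5 : mat g.1 (π g g.2 5) 5 = mat g'.1 (π g' g'.2 5) 5 := by
      refine mul_left_cancel₀ ?_ a
      exact mul_ne_zero (mul_ne_zero (mul_ne_zero (mul_ne_zero ((hπ g' g'.2).ne_zero hF 0) ((hπ g' g'.2).ne_zero hF 1))
        ((hπ g' g'.2).ne_zero hF 2)) ((hπ g' g'.2).ne_zero hF 3)) ((hπ g' g'.2).ne_zero hF 4)
    refine Subtype.ext (su_ext ?_)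
    show mat g.1 = mat g'.1
    rw [(hπ g g.2).eq_monM, (hπ g' g'.2).eq_monM, e1]
    congr 1
    funext j
    rw [e1] at e0 h1 h2 h3 h4 h5
    fin_cases j <;> assumption
  refine (Nat.card_le_card_of_injective ι hι).trans (le_of_eq ?_)
  rw [Nat.card_prod, Nat.card_fun, Nat.card_units, Nat.card_eq_fintype_card (α := F), hF,
    Nat.card_eq_fintype_card (α := Fin 4), Fintype.card_fin, Nat.card_eq_fintype_card,
    show Fintype.card {p : Equiv.Perm (Fin 6) // p 0 = 0} = 120 by decide +kernel]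
  rfl

theorem card_stabO_le {c : F} (hc : c ≠ 0) : Nat.card ↥(stabO c) ≤ 19595520 := by
  obtain ⟨cj⟩ := conj_exists hF
  set H := stabO c
  set e : Fin 6 → F := Pi.single 0 1
  have h1 : Nat.card (MulAction.orbit ↥H e) ≤ 2016 := by
    obtain ⟨Φ, hΦ, -⟩ := coded hF
    rw [← count_wt.2.2, ← Nat.card_eq_fintype_card]
    refine Nat.card_le_card_of_injective (fun v => (⟨Φ v.1, ?_⟩ : {w // Odd (wtW w)})) fun v w h =>
      Subtype.ext (Φ.injective (congrArg Subtype.val h))
    rw [hΦ, ← odd_wt_iff hF]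
    obtain ⟨g, hg⟩ := v.2
    rw [← hg]
    show hermForm 6 F 2 (mat g.1 *ᵥ e) (mat g.1 *ᵥ e) = 1
    rw [herm_mat]
    simp [e, cj.single_right]
  have h2 : Nat.card (MulAction.stabilizer ↥H e) ≤ 9720 := by
    refine le_trans (Nat.card_le_card_of_injective (fun g => (⟨g.1.1, g.1.2, g.2⟩ :
      ↥(H ⊓ MulAction.stabilizer (Cfsg.SU 6 F 2) e))) fun g g' h => ?_) (card_stab_single_le hF hc)
    exact Subtype.ext (Subtype.ext (congrArg (fun z : ↥(H ⊓ MulAction.stabilizer (Cfsg.SU 6 F 2) e) => z.1) h))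
  rw [← Nat.card_congr (MulAction.orbitProdStabilizerEquivGroup ↥H e), Nat.card_prod]
  calc _ ≤ 2016 * 9720 := Nat.mul_le_mul h1 h2
    _ = _ := by norm_num

/-- A subgroup preserving the vectors of weight two is monomial. -/
theorem le_monGroup_of_wt {K : Subgroup (Cfsg.SU 6 F 2)}
    (hK : ∀ g ∈ K, ∀ v : Fin 6 → F, wt v = 2 → wt (g • v) = 2) : K ≤ monGroup hF := by
  classical
  obtain ⟨cj⟩ := conj_exists hF
  obtain ⟨ω, hω0, hω1, -⟩ := exists_omega hF
  intro g hg
  let P : (Fin 6 → F) → (Fin 6 → F) → Prop := fun v w => ∀ u, wt u = 2 → hermForm 6 F 2 u v = 0 →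
    hermForm 6 F 2 u w = 0 ∨ ∃ t : F, u = t • v
  have hdis : ∀ u v : Fin 6 → F, Disjoint (supp u) (supp v) → hermForm 6 F 2 u v = 0 := fun u v h => by
    rw [hermForm]
    refine Finset.sum_eq_zero fun i _ => ?_
    by_cases hu : u i = 0
    · simp [hu]
    · have hv : v i = 0 := by_contra fun hv => Finset.disjoint_left.1 h (mem_supp.2 hu) (mem_supp.2 hv)
      simp [hv]
  have hP : ∀ v w, wt v = 2 → wt w = 2 → supp v = supp w → P v w := by
    intro v w hv hw e u hu h
    by_cases hd : Disjoint (supp u) (supp v)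
    · exact Or.inl (hdis u w (e ▸ hd))
    obtain ⟨i, hi, hi'⟩ := Finset.not_disjoint_iff.1 hd
    right
    refine ⟨u i / v i, ?_⟩
    obtain ⟨j, hji, hsv⟩ : ∃ j, j ≠ i ∧ supp v = {i, j} := by
      obtain ⟨a, b, hab, e'⟩ := supp_two _ hv
      rw [e'] at hi' ⊢
      rcases Finset.mem_insert.1 hi' with rfl | h
      · exact ⟨b, Ne.symm hab, rfl⟩
      · rw [Finset.mem_singleton.1 h]; exact ⟨a, hab, Finset.pair_comm _ _⟩
    have hvi := mem_supp.1 hi'
    have hvj : v j ≠ 0 := mem_supp.1 (by rw [hsv]; simp)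
    have hsum : u i * v i ^ 2 + u j * v j ^ 2 = 0 := by
      rw [← h, hermForm, ← Finset.sum_pair (f := fun k => u k * v k ^ 2) (Ne.symm hji)]
      refine Finset.sum_subset (Finset.subset_univ _) fun k _ hk => ?_
      have : v k = 0 := by_contra fun hv => hk (hsv ▸ mem_supp.2 hv)
      simp [this]
    have huj : u j ≠ 0 := fun h0 => by
      rw [h0, zero_mul, add_zero] at hsum
      exact mul_ne_zero (mem_supp.1 hi) (pow_ne_zero 2 hvi) hsum
    have hsu : supp u = {i, j} := (Finset.eq_of_subset_of_card_le (by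
      intro k hk
      rcases Finset.mem_insert.1 hk with rfl | hk
      · exact hi
      · rw [Finset.mem_singleton.1 hk]; exact mem_supp.2 huj) (by
      rw [Finset.card_pair (Ne.symm hji), ← hu, wt])).symm
    funext k
    rw [Pi.smul_apply, smul_eq_mul]
    by_cases hki : k = i
    · rw [hki, div_mul_cancel₀ _ hvi]
    by_cases hkj : k = j
    · rw [hkj, div_mul_eq_mul_div, eq_div_iff hvi]
      have h1 := cube_eq_one hF hvi
      have h2 := cube_eq_one hF hvj
      have h0 := two_eq_zero hF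
      linear_combination v i * v j * hsum - u i * v j * h1 - u j * v i * h2 - u i * v j * h0
    · have hu0 : u k = 0 := by_contra fun h' => by
        have := mem_supp.2 h'
        rw [hsu] at this
        simp [hki, hkj] at this
      have hv0 : v k = 0 := by_contra fun h' => by
        have := mem_supp.2 h'
        rw [hsv] at this
        simp [hki, hkj] at this
      simp [hu0, hv0]
  have hP' : ∀ v w, wt v = 2 → wt w = 2 → P v w → supp v = supp w := by
    intro v w hv hw h
    by_contra hne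
    obtain ⟨i, hiw, hiv⟩ : ∃ i ∈ supp w, i ∉ supp v := by
      by_contra hc
      push Not at hc
      exact hne (Finset.eq_of_subset_of_card_le hc (by rw [← wt, ← wt, hv, hw])).symm
    obtain ⟨k, hk⟩ : ∃ k, k ∉ supp v ∪ supp w := by
      by_contra hc
      push Not at hc
      have := (Finset.eq_univ_iff_forall.2 hc ▸ Finset.card_union_le (supp v) (supp w))
      rw [Finset.card_univ, Fintype.card_fin, ← wt, ← wt, hv, hw] at this
      omega
    rw [Finset.mem_union, not_or] at hk
    have hki : k ≠ i := fun e => hk.2 (e ▸ hiw)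
    set u : Fin 6 → F := Pi.single i 1 + Pi.single k 1
    have hui : u i = 1 := by simp [u, Pi.single_eq_of_ne (Ne.symm hki)]
    have hsu : supp u = {i, k} := Finset.ext fun m => by
      rw [mem_supp, Finset.mem_insert, Finset.mem_singleton]
      by_cases h1 : m = i
      · subst h1; simp [hui]
      · by_cases h2 : m = k
        · subst h2; simp [u, Pi.single_eq_of_ne h1]
        · simp [u, Pi.single_eq_of_ne h1, Pi.single_eq_of_ne h2, h1, h2]
    have hu : wt u = 2 := by rw [wt, hsu, Finset.card_pair (Ne.symm hki)]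
    have huv : hermForm 6 F 2 u v = 0 := hdis u v (by
      rw [hsu, Finset.disjoint_insert_left, Finset.disjoint_singleton_left]; exact ⟨hiv, hk.1⟩)
    rcases h u hu huv with h0 | ⟨t, ht⟩
    · rw [hermForm, Finset.sum_eq_single i (fun m _ hm => ?_) (by simp), hui, one_mul] at h0
      · exact mem_supp.1 hiw (pow_eq_zero_iff two_ne_zero |>.1 h0)
      · by_cases hmk : m = k
        · subst hmk
          have : w m = 0 := by_contra fun h' => hk.2 (mem_supp.2 h')
          simp [this]
        · simp [u, Pi.single_eq_of_ne hm, Pi.single_eq_of_ne hmk]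
    · have := congrFun ht i
      rw [hui, Pi.smul_apply, by_contra fun h' => hiv (mem_supp.2 h'), smul_zero] at this
      exact one_ne_zero this
  have hmove : ∀ v w, wt v = 2 → wt w = 2 → P v w → P (g • v) (g • w) := by
    intro v w hv hw h u hu h0
    have e : g • (g⁻¹ • u) = u := smul_inv_smul g u
    have hu' : wt (g⁻¹ • u) = 2 := hK _ (inv_mem hg) u hu
    have h0' : hermForm 6 F 2 (g⁻¹ • u) v = 0 := by
      rw [← herm_mat g, ← smul_def, ← smul_def, e]; exact h0
    rcases h _ hu' h0' with h1 | ⟨t, ht⟩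
    · left
      rw [← herm_mat g, ← smul_def, ← smul_def, e] at h1
      exact h1
    · right; exact ⟨t, by rw [← e, ht, smul_def, smul_def, mulVec_smul]⟩
  refine isMon_of_col hF fun j => ?_
  obtain ⟨i, hij⟩ := exists_ne j
  set v : Fin 6 → F := Pi.single i 1 + Pi.single j 1
  set w : Fin 6 → F := Pi.single i 1 + ω • (Pi.single j 1 : Fin 6 → F)
  have hs : ∀ t : F, t ≠ 0 → supp (Pi.single i 1 + t • (Pi.single j 1 : Fin 6 → F)) = {i, j} := fun t ht =>
    Finset.ext fun m => by
      rw [mem_supp, Finset.mem_insert, Finset.mem_singleton]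
      by_cases h1 : m = i
      · subst h1; simp [Pi.single_eq_of_ne hij]
      · by_cases h2 : m = j
        · subst h2; simp [Pi.single_eq_of_ne h1, ht]
        · simp [Pi.single_eq_of_ne h1, Pi.single_eq_of_ne h2, h1, h2]
  have hsv : supp v = {i, j} := by simpa using hs 1 one_ne_zero
  have hv : wt v = 2 := by rw [wt, hsv, Finset.card_pair hij]
  have hw : wt w = 2 := by rw [wt, hs ω hω0, Finset.card_pair hij]
  have hS : supp (g • v) = supp (g • w) :=
    hP' _ _ (hK g hg v hv) (hK g hg w hw) (hmove v w hv hw (hP v w hv hw (hsv.trans (hs ω hω0).symm)))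
  have hsub : supp (g • (Pi.single j 1 : Fin 6 → F)) ⊆ supp (g • v) := fun m hm => by
    by_contra h1
    have hmv : (g • v) m = 0 := by_contra fun h => h1 (mem_supp.2 h)
    have hmw : (g • w) m = 0 := by_contra fun h => h1 (hS ▸ mem_supp.2 h)
    refine mem_supp.1 hm ?_
    have e : g • w - g • v = (ω - 1) • (g • (Pi.single j 1 : Fin 6 → F)) := by
      simp only [smul_def, ← mulVec_sub, ← mulVec_smul]
      congr 1
      simp only [v, w, sub_smul, one_smul]
      abel
    have := congrFun e m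
    rw [Pi.sub_apply, hmv, hmw, sub_zero, Pi.smul_apply, smul_eq_mul] at this
    exact (mul_eq_zero.1 this.symm).resolve_left (sub_ne_zero.2 hω1)
  have hodd : Odd (wt (g • (Pi.single j 1 : Fin 6 → F))) := by
    rw [← odd_wt_iff hF, smul_def, herm_mat, cj.single_right, Pi.single_eq_same]
  have hle := Finset.card_le_card hsub
  rw [← wt, ← wt, hK g hg v hv] at hle
  obtain ⟨i', hi'⟩ := Finset.card_eq_one.1 (show (supp (g • (Pi.single j 1 : Fin 6 → F))).card = 1 by
    obtain ⟨k, hk⟩ := hodd; rw [← wt]; omega)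
  refine ⟨i', fun m hm => by_contra fun h => hm (Finset.mem_singleton.1 (hi' ▸ mem_supp.2 ?_))⟩
  rwa [smul_def, mulVec_single_one]

end CfsgLib.UnitarySixFour
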